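import Cfsg.Agent.Lib.Block.Vanish

/-!
# Excluding characters of `2`-defect zero for groups like `M22` and `M24`
-/

set_option autoImplicit false
set_option linter.unusedSectionVars false
set_option linter.style.haveILetI false

namespace Cfsg.Agent.Block

open MonoidAlgebra Cfsg.Agent.Char Cfsg.Agent.Tr Subgroup Module

variable {G : Type*} [Group G] [Finite G] {χ : IrrCharacter G}

theorem apply_mul_eq_zero_of_vanish (hv : ∀ g, 2 ∣ orderOf g → χ.1 g = 0) {Q R : Subgroup G}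
    {k : ℕ} (hQ : Nat.card Q = 2 ^ k) (hR : ¬ 2 ∣ Nat.card R) {y : G} (hy : y ∈ R)
    (hc : Q ≤ centralizer {y}) (q : G) (hq : q ∈ Q) (h1 : q ≠ 1) : χ.1 (y * q) = 0 := by
  have h2 : Commute q y := mem_centralizer_singleton_iff.1 (hc hq)
  rw [← h2.eq]
  exact hv _ (dvd_orderOf_mul_of_ne_one h2 (exists_orderOf_of_mem (IsPGroup.of_card hQ) hq)
    (fun h => hR (h.trans (R.orderOf_dvd_natCard hy))) h1)

theorem exists_int_of_vanish (hv : ∀ g, 2 ∣ orderOf g → χ.1 g = 0) {Q R : Subgroup G}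
    {k : ℕ} (hQ : Nat.card Q = 2 ^ k) (hR : ¬ 2 ∣ Nat.card R) {y : G} (hy : y ∈ R)
    (hc : Q ≤ centralizer {y}) {a : ℚ} (ha : χ.1 y = a) : ∃ b : ℤ, χ.1 y = (2 ^ k * b : ℤ) := by
  obtain ⟨b, hb⟩ := dvd_of_vanish (isChar_irr χ) (centralizer_le_normalizer _
    (le_centralizer_singleton_iff.1 hc)) (apply_mul_eq_zero_of_vanish hv hQ hR hy hc) ha
  exact ⟨b, by rw [ha, hb, hQ]; simp⟩

theorem two_pow_dvd_charDegree (hv : ∀ g, 2 ∣ orderOf g → χ.1 g = 0) {k : ℕ}
    (hk : 2 ^ k ∣ Nat.card G) : 2 ^ k ∣ charDegree χ.1 := by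
  obtain ⟨Q, hQ⟩ := Sylow.exists_subgroup_card_pow_prime 2 hk
  rw [← hQ]
  exact card_dvd_charDegree_of_vanish (isChar_irr χ) fun g hg h1 => hv g
    (dvd_orderOf_of_ne_one h1 (exists_orderOf_of_mem (IsPGroup.of_card hQ) hg))

theorem abs_le_of_fpf (hv : ∀ g, 2 ∣ orderOf g → χ.1 g = 0) {Q : Subgroup G}
    {k : ℕ} (hQ : Nat.card Q = 2 ^ k) {y : G} (hy : y ∈ normalizer (Q : Set G))
    (h : ∀ q ∈ Q, q * y = y * q → q = 1) {a : ℤ} (ha : χ.1 y = a) :
    2 ^ k * |a| ≤ charDegree χ.1 := by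
  have := norm_le_of_fpf (isChar_irr χ) hy h fun g hg h1 => hv g
    (dvd_orderOf_of_ne_one h1 (exists_orderOf_of_mem (IsPGroup.of_card hQ) hg))
  rw [ha, ← cast_charDegree, Complex.norm_intCast, Complex.norm_natCast, hQ,
    le_div_iff₀ (by positivity), mul_comm] at this
  exact_mod_cast this

theorem sq_add_le_card_int (χ : IrrCharacter G) {x : G} (hx : x ≠ 1) {a : ℤ} (ha : χ.1 x = a) :
    (charDegree χ.1 : ℤ) ^ 2 + (centralizer ({x} : Set G)).index * a ^ 2 ≤ Nat.card G := by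
  have := sq_add_le_card χ hx
  rw [ha, ← cast_charDegree, Complex.norm_intCast, Complex.norm_natCast, sq_abs] at this
  exact_mod_cast this

theorem false_of_M22 (hG : Nat.card G = 443520) (hv : ∀ g, 2 ∣ orderOf g → χ.1 g = 0) {x : G}
    {E V : Subgroup G} [Fintype E] (hx : x ∈ E) (hx1 : x ≠ 1) (hE : Nat.card E = 9)
    (hs : ∑ r : E, χ.1 r = χ.1 1 + 8 * χ.1 x) (hV : Nat.card V = 2 ^ 2) (hVx : V ≤ centralizer {x})
    (hC : Nat.card (centralizer ({x} : Set G)) ≤ 72) : False := by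
  obtain ⟨k, hk⟩ := exists_sum_eq (isChar_irr χ) E
  rw [hs, hE, ← cast_charDegree] at hk
  obtain ⟨b, hb⟩ := exists_int_of_vanish hv hV (hE ▸ by decide) hx hVx
    (a := (9 * k - charDegree χ.1) / 8) (by push_cast; linear_combination hk / 8)
  have h1 := sq_add_le_card_int χ hx1 hb
  have h2 : (charDegree χ.1 : ℤ) + 8 * (2 ^ 2 * b) = 9 * k := by
    rw [hb] at hk
    exact_mod_cast hk
  obtain ⟨m, hm⟩ := two_pow_dvd_charDegree hv (k := 7) (hG ▸ by decide)
  have h3 := charDegree_dvd_card χ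
  have h4 := (centralizer ({x} : Set G)).card_mul_index
  rw [hG] at h1 h3 h4
  have h5 : (6160 : ℤ) ≤ (centralizer ({x} : Set G)).index := by
    have : 6160 ≤ (centralizer ({x} : Set G)).index := by nlinarith
    exact_mod_cast this
  rw [hm] at h1 h2 h3
  have h6 : (2 ^ 7 * m : ℤ) ^ 2 + 6160 * (2 ^ 2 * b) ^ 2 ≤ 443520 := by
    push_cast at h1
    nlinarith [sq_nonneg (2 ^ 2 * b)]
  have h7 : m ≤ 5 := by nlinarith [sq_nonneg b]
  have h8 : -3 ≤ b ∧ b ≤ 3 := by constructor <;> nlinarith [sq_nonneg (m : ℤ)]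
  obtain ⟨h8, h9⟩ := h8
  interval_cases m <;> interval_cases b <;> omega

theorem false_of_M24 (hG : Nat.card G = 244823040) (hv : ∀ g, 2 ∣ orderOf g → χ.1 g = 0)
    {P : Subgroup G} (hP : Nat.card P = 23) (hPC : centralizer (P : Set G) ≤ P) {w z : G}
    {E R V D Q Q' : Subgroup G} [Fintype E] [Fintype R] (hw : w ∈ R) (hz : z ∈ R)
    (hE : Nat.card E = 9) (hR : Nat.card R = 27) (hs : ∑ r : E, χ.1 r = χ.1 1 + 8 * χ.1 w)
    (hs' : ∑ r : R, χ.1 r = χ.1 1 + (14 * χ.1 w + 12 * χ.1 z)) (hV : Nat.card V = 2 ^ 2)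
    (hVw : V ≤ centralizer {w}) (hD : Nat.card D = 2 ^ 3) (hDz : D ≤ centralizer {z})
    (hQ : Nat.card Q = 2 ^ 6) (hQw : w ∈ normalizer (Q : Set G))
    (hQw' : ∀ q ∈ Q, q * w = w * q → q = 1) (hQ' : Nat.card Q' = 2 ^ 6)
    (hQz : z ∈ normalizer (Q' : Set G)) (hQz' : ∀ q ∈ Q', q * z = z * q → q = 1) : False := by
  haveI : Fact (Nat.Prime 23) := ⟨by norm_num⟩
  have hn : charDegree χ.1 = 1024 := by
    obtain ⟨m, hm⟩ := two_pow_dvd_charDegree hv (k := 10) (hG ▸ by decide)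
    have h1 := sq_add_le_card χ (x := w) (by
      rintro rfl
      have := card_eq_one.2 (eq_bot_iff.2 fun q hq => hQw' q hq (by simp))
      omega)
    have h2 : (charDegree χ.1 : ℝ) ^ 2 ≤ Nat.card G := by
      rw [← cast_charDegree, Complex.norm_natCast] at h1
      exact le_trans (le_add_of_nonneg_right (by positivity)) h1
    have h3 : charDegree χ.1 ^ 2 ≤ 244823040 := by exact_mod_cast hG ▸ h2
    have h4 := charDegree_dvd_card χ
    have h5 := P.card_mul_index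
    rw [hG] at h4 h5
    rw [hP] at h5
    have h6 := charDegree_modEq_of_selfCent (by decide) (P := P) ⟨le_top,
      IsPGroup.of_card (hP.trans (pow_one _).symm), by rw [relIndex_top_right]; omega⟩ hP hPC χ
    rw [hm] at h3 h4 h6 ⊢
    have h7 : m ≤ 15 := by nlinarith
    rcases h6 with h6 | ⟨e, he, ε, hε, h6⟩
    · interval_cases m <;> omega
    · have := Nat.le_of_dvd (by decide) he
      unfold Int.ModEq at h6
      rcases hε with rfl | rfl <;> interval_cases e <;> first | omega | interval_cases m <;> omega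
  obtain ⟨k, hk⟩ := exists_sum_eq (isChar_irr χ) E
  obtain ⟨l, hl⟩ := exists_sum_eq (isChar_irr χ) R
  rw [hs, hE, ← cast_charDegree, hn] at hk
  rw [hs', hR, ← cast_charDegree, hn] at hl
  obtain ⟨a, ha⟩ := exists_int_of_vanish hv hV (hR ▸ by decide) hw hVw
    (a := (9 * k - 1024) / 8) (by push_cast at hk ⊢; linear_combination hk / 8)
  rw [ha] at hk hl
  obtain ⟨b, hb⟩ := exists_int_of_vanish hv hD (hR ▸ by decide) hz hDz
    (a := (27 * l - 1024 - 14 * (2 ^ 2 * a)) / 12)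
    (by push_cast at hl ⊢; linear_combination hl / 12)
  rw [hb] at hl
  have h1 := abs_le_of_fpf hv hQ hQw hQw' ha
  have h2 := abs_le_of_fpf hv hQ' hQz hQz' hb
  rw [hn] at h1 h2
  have h3 : 1024 + 8 * (2 ^ 2 * a) = 9 * k := by exact_mod_cast hk
  have h4 : 1024 + (14 * (2 ^ 2 * a) + 12 * (2 ^ 3 * b)) = 27 * l := by exact_mod_cast hl
  have := le_abs_self (2 ^ 2 * a)
  have := neg_abs_le (2 ^ 2 * a)
  have := le_abs_self (2 ^ 3 * b)
  have := neg_abs_le (2 ^ 3 * b)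
  omega

end Cfsg.Agent.Block
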