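import Cfsg.Agent.Lib.Block.DZero
import Cfsg.Agent.Lib.Mathieu.Golay

/-!
# Certificates for subgroups of `M24`
-/

set_option autoImplicit false
set_option linter.unusedSectionVars false
set_option linter.style.haveILetI false

namespace Cfsg.Agent.Block

open Subgroup

section
variable {Γ : Type*} [Group Γ]

/-- `Q` is a self-centralizing normal `p`-subgroup of the centralizer of `t` in `G`. -/
def LocRel (p : ℕ) (G : Subgroup Γ) (t : Γ) (Q : Subgroup Γ) : Prop :=
  Q ≤ centralizer {t} ∧ G ⊓ centralizer {t} ≤ normalizer (Q : Set Γ) ∧ IsPGroup p Q ∧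
    G ⊓ centralizer {t} ⊓ centralizer (Q : Set Γ) ≤ Q

theorem LocRel.locChar {p : ℕ} {G H Q : Subgroup Γ} {t : H} (h : LocRel p G t Q) (hHG : H ≤ G)
    (hQH : Q ≤ H) : LocChar p t := by
  obtain ⟨h1, h2, h3, h4⟩ := h
  have e : ∀ x : H, x ∈ centralizer ({t} : Set H) ↔ (x : Γ) ∈ centralizer ({(t : Γ)} : Set Γ) :=
    fun x => by simp only [mem_centralizer_singleton_iff, Subtype.ext_iff, coe_mul]
  exact ⟨Q.subgroupOf H, fun x hx => (e x).2 (h1 hx), fun x hx => mem_normalizer_iff.2 fun y =>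
    mem_normalizer_iff.1 (h2 ⟨hHG x.2, (e x).1 hx⟩) y, h3.comap_subtype, fun x hx =>
      h4 ⟨⟨hHG x.2, (e x).1 hx.1⟩, fun y hy => congrArg Subtype.val (hx.2 ⟨y, hQH hy⟩ hy)⟩⟩

theorem LocRel.conj {p : ℕ} {G Q : Subgroup Γ} {t g : Γ} (h : LocRel p G t Q) (hg : g ∈ G) :
    LocRel p G (g * t * g⁻¹) (Q.comap (MulAut.conj g⁻¹).toMonoidHom) := by
  obtain ⟨h1, h2, h3, h4⟩ := h
  have e : ∀ x, x ∈ centralizer ({g * t * g⁻¹} : Set Γ) ↔
      g⁻¹ * x * g ∈ centralizer ({t} : Set Γ) := fun x => by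
    rw [mem_centralizer_singleton_iff, mem_centralizer_singleton_iff]
    constructor <;> intro h
    · calc _ = g⁻¹ * (x * (g * t * g⁻¹)) * g := by group
        _ = _ := by rw [h]; group
    · calc _ = g * (g⁻¹ * x * g * t) * g⁻¹ := by group
        _ = _ := by rw [h]; group
  have e' : ∀ x ∈ G, g⁻¹ * x * g ∈ G := fun x hx => mul_mem (mul_mem (inv_mem hg) hx) hg
  refine ⟨fun x hx => (e x).2 (h1 (by simpa using hx)),
    fun x hx => mem_normalizer_iff.2 fun y => ?_, h3.comap_of_injective _ (MulEquiv.injective _),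
    fun x hx => ?_⟩
  · have := mem_normalizer_iff.1 (h2 ⟨e' x hx.1, (e x).1 hx.2⟩) (g⁻¹ * y * g)
    simpa [mul_assoc] using this
  · have : g⁻¹ * x * g ∈ Q := h4 ⟨⟨e' x hx.1.1, (e x).1 hx.1.2⟩, fun y hy => by
      have := hx.2 (g * y * g⁻¹) (by simpa [mul_assoc] using hy)
      calc _ = g⁻¹ * (g * y * g⁻¹ * x) * g := by group
        _ = _ := by rw [this]; group⟩
    simpa using this

theorem card_eq_orbit_mul {α : Type*} (H : Subgroup (Equiv.Perm α)) (x : α) :
    Nat.card H = (MulAction.orbit H x).ncard *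
      Nat.card (H ⊓ MulAction.stabilizer (Equiv.Perm α) x : Subgroup (Equiv.Perm α)) := by
  rw [← MulAction.index_stabilizer, ← (MulAction.stabilizer H x).index_mul_card,
    ← Nat.card_congr (subgroupOfEquivOfLe (inf_le_left (a := H))).toEquiv, inf_subgroupOf_left]
  rfl

end

namespace Mat

open Cfsg.Agent.PC Cfsg.Agent.Mathieu Equiv

theorem eq_of_rep {c d : ℕ} {σ : Perm GolayPt} (hc : Rep 5 ept c σ) (hd : Rep 5 ept d σ)
    (h1 : c < 2 ^ 120) (h2 : d < 2 ^ 120) : c = d := by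
  refine Nat.eq_of_testBit_eq fun j => ?_
  by_cases hj : j < 120
  · obtain ⟨x, hx⟩ := exists_pt (e := ept) (i := j / 5) (by omega)
    have := congrArg (Nat.testBit · (j % 5)) ((hc x).symm.trans (hd x))
    simpa only [ap, hx, Nat.testBit_mod_two_pow, Nat.testBit_shiftRight, Nat.div_add_mod,
      Nat.mod_lt j (show 5 > 0 by decide), decide_true, Bool.true_and] using this
  · have := Nat.pow_le_pow_right (show 2 > 0 by decide) (not_lt.1 hj)
    rw [Nat.testBit_lt_two_pow (h1.trans_le this), Nat.testBit_lt_two_pow (h2.trans_le this)]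

theorem and_eq_of_subset {a b : ℕ} (ha : a < 2 ^ 24) (h : toSet ept a ⊆ toSet ept b) :
    b &&& a = a := by
  refine Nat.eq_of_testBit_eq fun j => ?_
  rw [Nat.testBit_and]
  cases hj : a.testBit j
  · simp
  · obtain ⟨x, rfl⟩ := exists_pt (e := ept) (i := j) (by
      by_contra h'
      rw [Nat.testBit_lt_two_pow (ha.trans_le (Nat.pow_le_pow_right (by decide) (not_lt.1 h')))]
        at hj
      cases hj)
    simp [mem_toSet.1 (h (mem_toSet.2 hj))]

/-! ### Pointwise stabilizers -/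

/-- The pointwise stabilizer in `M24` of a set of points. -/
def Fx (B : ℕ) : Subgroup (Perm GolayPt) where
  carrier := {g | g ∈ M24 ∧ ∀ x ∈ toSet ept B, g x = x}
  one_mem' := ⟨one_mem _, fun _ _ => rfl⟩
  mul_mem' ha hb := ⟨mul_mem ha.1 hb.1, fun x hx => by rw [Perm.mul_apply, hb.2 x hx, ha.2 x hx]⟩
  inv_mem' ha := ⟨inv_mem ha.1, fun x hx => Perm.inv_eq_iff_eq.2 (ha.2 x hx).symm⟩

theorem Fx_inf (B : ℕ) (x : GolayPt) :
    Fx B ⊓ MulAction.stabilizer (Perm GolayPt) x = Fx (B ||| 1 <<< (ept x : ℕ)) := by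
  ext g
  refine ⟨fun h => ⟨h.1.1, fun y hy => ?_⟩, fun h => ⟨⟨h.1, fun y hy => h.2 y ?_⟩, h.2 x ?_⟩⟩
  · rw [toSet_or, Finset.mem_union, mem_toSet_single] at hy
    rcases hy with hy | hy
    exacts [h.1.2 y hy, idx_inj hy ▸ h.2]
  · rw [toSet_or]
    exact Finset.mem_union_left _ hy
  · rw [toSet_or]
    exact Finset.mem_union_right _ (mem_toSet_single.2 rfl)

theorem Fx_zero : Fx 0 = M24 := by
  ext g
  exact ⟨fun h => h.1, fun h => ⟨h, by simp [toSet]⟩⟩

theorem Fx_M22 : Fx 8388609 = Spor.M22 := by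
  rw [Spor.M22, Spor.M23, ← Fx_zero, Fx_inf, Fx_inf]
  rfl

/-- The checker for membership in `Fx B`. -/
noncomputable def inFx (B c : ℕ) : Bool :=
  valid 24 5 c && inM24 c && Nat.beq (fixM 24 5 c &&& B) B && Nat.blt c (2 ^ 120)

theorem exists_of_inFx {B c : ℕ} (h : inFx B c = true) : ∃ σ : Fx B, Rep 5 ept c σ := by
  simp only [inFx, Bool.and_eq_true] at h
  obtain ⟨σ, hσ⟩ := exists_rep (e := ept) h.1.1.1
  exact ⟨⟨σ, mem_M24 hσ h.1.1.2, fun x hx => hσ.mem_fixM.1 (subset_of_and h.1.2 hx)⟩, hσ⟩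

theorem lt_of_inFx {B c : ℕ} (h : inFx B c = true) : c < 2 ^ 120 := by
  simp only [inFx, Bool.and_eq_true, Nat.blt_eq] at h
  exact h.2

/-- The octad `o` is determined by its points in `F`. -/
noncomputable def uniq (F o : ℕ) : Bool := mem o octL && Nat.blt o (2 ^ 24) &&
  allL (fun b => !Nat.beq (b &&& (o &&& F)) (o &&& F) || Nat.beq b o) octL

theorem pres_of_uniq {F o : ℕ} (h : uniq F o = true) {g : Perm GolayPt} (hg : g ∈ Fx F) :
    Pres ept g o := by
  simp only [uniq, Bool.and_eq_true, mem_iff, Nat.blt_eq, allL_iff, Bool.or_eq_true,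
    Bool.not_eq_true', Nat.beq_eq] at h
  obtain ⟨b, hb, h1⟩ := exists_oct hg.1 h.1.1
  obtain rfl : b = o := (h.2 b hb).resolve_left (by
    rw [and_eq_of_subset (Nat.and_le_left.trans_lt h.1.2) fun x hx => ?_, Nat.beq_refl]
    · simp
    · rw [toSet_and, Finset.mem_inter] at hx
      exact hg.2 x hx.2 ▸ (h1 x).2 hx.1)
  exact h1

theorem mem_diff_of_pres {B m : ℕ} {g : Perm GolayPt} (hg : g ∈ Fx B) (hm : Pres ept g m)
    {x : GolayPt} (hx : x ∈ toSet ept (m ^^^ (m &&& B))) : g x ∈ toSet ept (m ^^^ (m &&& B)) := by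
  rw [toSet_diff, Finset.mem_sdiff] at hx ⊢
  exact ⟨(hm x).2 hx.1, fun h => hx.2 (g.injective (hg.2 _ h) ▸ h)⟩

/-- Successively finds more fixed points. -/
noncomputable def fixRun (l : List (ℕ × ℕ × ℕ)) : ℕ → Bool :=
  List.rec (fun F => Nat.beq F 16777215) (fun s _ r F => uniq F s.1 && uniq F s.2.1 &&
    Nat.beq ((s.1 &&& s.2.1) ^^^ (s.1 &&& s.2.1 &&& F)) (1 <<< s.2.2) && r (F ||| 1 <<< s.2.2)) l

theorem eq_one_of_fixRun {l : List (ℕ × ℕ × ℕ)} {F : ℕ} (h : fixRun l F = true)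
    {g : Perm GolayPt} (hg : g ∈ Fx F) : g = 1 := by
  induction l generalizing F with
  | nil =>
    have : ∀ y, y ∈ toSet ept 16777215 := by decide +kernel
    exact Perm.ext fun x => hg.2 x (Nat.eq_of_beq_eq_true h ▸ this x)
  | cons s l ih =>
    replace h : (uniq F s.1 && uniq F s.2.1 && Nat.beq ((s.1 &&& s.2.1) ^^^
      (s.1 &&& s.2.1 &&& F)) (1 <<< s.2.2) && fixRun l (F ||| 1 <<< s.2.2)) = true := h
    simp only [Bool.and_eq_true, Nat.beq_eq] at h
    refine ih h.2 ⟨hg.1, fun x hx => ?_⟩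
    rw [toSet_or, Finset.mem_union] at hx
    refine hx.elim (hg.2 x) fun hx => ?_
    have := mem_diff_of_pres hg (m := s.1 &&& s.2.1) (fun y => by
      rw [toSet_and, Finset.mem_inter, Finset.mem_inter, pres_of_uniq h.1.1.1 hg,
        pres_of_uniq h.1.1.2 hg]) (h.1.2 ▸ hx)
    rw [h.1.2, mem_toSet_single] at this
    exact idx_inj (this.symm.trans (mem_toSet_single.1 hx))

/-- `K` maps the point `i` to all points of `T`. -/
noncomputable def trans (B i T : ℕ) (K : List ℕ) : Bool := Nat.blt i 24 && T.testBit i &&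
  allL (inFx B) K && allN (fun j => !T.testBit j || anyL (fun c => Nat.beq (ap 5 c i) j) K) 24

theorem exists_of_trans {B i T : ℕ} {K : List ℕ} (h : trans B i T K = true) :
    ∃ x ∈ toSet ept T, ept x = i ∧ ∀ y ∈ toSet ept T, ∃ σ : Fx B, σ.1 x = y := by
  simp only [trans, Bool.and_eq_true, Nat.blt_eq, allL_iff, allN_iff, Bool.or_eq_true,
    Bool.not_eq_true', anyL_iff, Nat.beq_eq] at h
  obtain ⟨x, rfl⟩ := exists_pt (e := ept) h.1.1.1
  refine ⟨x, mem_toSet.2 h.1.1.2, rfl, fun y hy => ?_⟩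
  obtain ⟨c, hc, e⟩ := (forall_lt (e := ept) h.2 y).resolve_left (by simp [mem_toSet.1 hy])
  obtain ⟨σ, hσ⟩ := exists_of_inFx (h.1.2 c hc)
  exact ⟨σ, idx_inj ((hσ x).trans e)⟩

theorem card_Fx {B i T : ℕ} {K : List ℕ} (h : trans B i T K = true)
    (hT : ∀ g ∈ Fx B, ∀ x ∈ toSet ept T, g x ∈ toSet ept T) :
    Nat.card (Fx B) = pop T * Nat.card (Fx (B ||| 1 <<< i)) := by
  obtain ⟨x, hx, rfl, h'⟩ := exists_of_trans h
  rw [card_eq_orbit_mul _ x, Fx_inf, pop_eq, ← Set.ncard_coe_finset]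
  congr 2
  exact Set.Subset.antisymm (by rintro _ ⟨g, rfl⟩; exact hT g g.2 x hx) h'

theorem card_Fx_diff {B i m : ℕ} {K : List ℕ} (h : trans B i (m ^^^ (m &&& B)) K = true)
    (hm : ∀ g ∈ Fx B, Pres ept g m) :
    Nat.card (Fx B) = pop (m ^^^ (m &&& B)) * Nat.card (Fx (B ||| 1 <<< i)) :=
  card_Fx h fun g hg _ => mem_diff_of_pres hg (hm g hg)

theorem card_Fx_eq_one {l : List (ℕ × ℕ × ℕ)} {F : ℕ} (h : fixRun l F = true) :
    Nat.card (Fx F) = 1 :=
  card_eq_one.2 (eq_bot_iff.2 fun _ hg => eq_one_of_fixRun h hg)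

theorem card_inf_le {B i F : ℕ} {H : Subgroup (Perm GolayPt)} (hH : ∀ g ∈ H, Pres ept g F)
    (hi : i < 24) (h : (F ^^^ (F &&& B)).testBit i = true) :
    Nat.card (H ⊓ Fx B : Subgroup _) ≤
      pop (F ^^^ (F &&& B)) * Nat.card (H ⊓ Fx (B ||| 1 <<< i) : Subgroup _) := by
  obtain ⟨x, rfl⟩ := exists_pt (e := ept) hi
  rw [card_eq_orbit_mul _ x, inf_assoc, Fx_inf, pop_eq, ← Set.ncard_coe_finset]
  refine Nat.mul_le_mul_right _ (Set.ncard_le_ncard ?_)
  rintro _ ⟨g, rfl⟩
  exact mem_diff_of_pres g.2.2 (hH g g.2.1) (mem_toSet.2 h)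

/-! ### Listed subgroups -/

open Classical in
/-- The element coded by `c`. -/
noncomputable def el (B c : ℕ) : Fx B :=
  if h : ∃ σ : Fx B, Rep 5 ept c σ then h.choose else 1

theorem rep_el {B c : ℕ} (h : inFx B c = true) : Rep 5 ept c (el B c) := by
  rw [el, dif_pos (exists_of_inFx h)]
  exact (exists_of_inFx h).choose_spec

noncomputable def nodup (l : List ℕ) : Bool := List.rec true (fun a l r => !mem a l && r) l

theorem nodup_of {l : List ℕ} (h : nodup l = true) : l.Nodup := by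
  induction l with
  | nil => exact List.nodup_nil
  | cons a l ih =>
    replace h : (!mem a l && nodup l) = true := h
    simp only [Bool.and_eq_true, Bool.not_eq_true', ← Bool.not_eq_true, mem_iff] at h
    exact List.nodup_cons.2 ⟨h.1, ih h.2⟩

/-- `L` lists a subgroup of `Fx B`. -/
noncomputable def isSub (B : ℕ) (L : List ℕ) : Bool := allL (inFx B) L && nodup L &&
  anyL (isOne 24 5) L && allL (fun a => allL (fun b => anyL (isMul 24 5 a b) L) L) L

variable {B : ℕ} {L : List ℕ}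

theorem inFx_of_isSub (h : isSub B L = true) : ∀ c ∈ L, inFx B c = true := by
  simp only [isSub, Bool.and_eq_true, allL_iff] at h
  exact h.1.1.1

/-- The subgroup listed by `L`. -/
noncomputable def sub (h : isSub B L = true) : Subgroup (Fx B) :=
  have h' := inFx_of_isSub h
  have h1 : ∃ c ∈ L, el B c = 1 := by
    simp only [isSub, Bool.and_eq_true, anyL_iff] at h
    obtain ⟨c, hc, e⟩ := h.1.2
    exact ⟨c, hc, Subtype.ext ((rep_el (h' c hc)).unique (rep_one e))⟩
  have h2 : ∀ x y : Fx B, (∃ c ∈ L, el B c = x) → (∃ c ∈ L, el B c = y) →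
      ∃ c ∈ L, el B c = x * y := by
    simp only [isSub, Bool.and_eq_true, anyL_iff, allL_iff] at h
    rintro _ _ ⟨a, ha, rfl⟩ ⟨b, hb, rfl⟩
    obtain ⟨c, hc, e⟩ := h.2 a ha b hb
    exact ⟨c, hc, Subtype.ext ((rep_el (h' c hc)).unique
      ((rep_el (h' a ha)).mul (rep_el (h' b hb)) e))⟩
  { carrier := {x | ∃ c ∈ L, el B c = x}
    one_mem' := h1
    mul_mem' := h2 _ _
    inv_mem' := fun {x} hx => by
      obtain ⟨n, hn⟩ : x⁻¹ ∈ Submonoid.powers x :=
        mem_powers_iff_mem_zpowers.2 (inv_mem (mem_zpowers x))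
      rw [← hn]
      clear hn
      induction n with
      | zero => simp only [pow_zero]; exact h1
      | succ n ih => simp only [pow_succ]; exact h2 _ _ ih hx }

theorem mem_sub (h : isSub B L = true) {x : Fx B} : x ∈ sub h ↔ ∃ c ∈ L, el B c = x := Iff.rfl

theorem nodup_map_el (h : allL (inFx B) L = true) (h' : nodup L = true) :
    (L.map (el B)).Nodup :=
  (nodup_of h').map_on fun a ha b hb e => eq_of_rep (rep_el (allL_iff.1 h a ha))
    (e ▸ rep_el (allL_iff.1 h b hb)) (lt_of_inFx (allL_iff.1 h a ha))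
    (lt_of_inFx (allL_iff.1 h b hb))

theorem sum_sub (h : isSub B L = true) [Fintype (sub h)] {A : Type*} [AddCommMonoid A]
    (f : Fx B → A) : ∑ x : sub h, f x = (L.map fun c => f (el B c)).sum := by
  classical
  have h' := h
  simp only [isSub, Bool.and_eq_true] at h'
  rw [← Finset.sum_subtype (L.map (el B)).toFinset (by simp [mem_sub]),
    List.sum_toFinset _ (nodup_map_el h'.1.1.1 h'.1.1.2), List.map_map]
  rfl

theorem card_sub (h : isSub B L = true) : Nat.card (sub h) = L.length := by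
  haveI := Fintype.ofFinite (sub h)
  simpa using sum_sub h fun _ => (1 : ℕ)

/-- The members of `K` are conjugate to `w`. -/
noncomputable def cls (B w : ℕ) (K : List (ℕ × ℕ)) : Bool :=
  inFx B w && allL (fun s => inFx B s.1 && inFx B s.2 && rel 24 5 s.2 w s.1 s.2) K

theorem sum_cls {w : ℕ} {K : List (ℕ × ℕ)} (h : cls B w K = true) {f : Fx B → ℂ}
    (hf : IsClassFunction (Fx B) f) :
    ((K.map Prod.fst).map fun c => f (el B c)).sum = K.length * f (el B w) := by
  simp only [cls, Bool.and_eq_true, allL_iff] at h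
  rw [List.map_map, List.map_congr_left (g := fun _ => f (el B w)) fun s hs => ?_]
  · simp
  · obtain ⟨⟨h1, h2⟩, h3⟩ := h.2 s hs
    rw [← hf _ (el B s.2)]
    exact congrArg f (Subtype.ext ((rep_el h1).unique ((rep_el h2).conj (rep_el h.1) h3)))

theorem el_one {c : ℕ} (h : inFx B c = true) (h' : isOne 24 5 c = true) : el B c = 1 :=
  Subtype.ext ((rep_el h).unique (rep_one h'))

theorem commute_el_iff {a b : ℕ} (ha : inFx B a = true) (hb : inFx B b = true) :
    el B a * el B b = el B b * el B a ↔ rel 24 5 a b b a = true := by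
  rw [rel_iff (rep_el ha) (rep_el hb) (rep_el hb) (rep_el ha), Subtype.ext_iff]
  rfl

theorem sub_le_centralizer (h : isSub B L = true) {w : ℕ} (hw : inFx B w = true)
    (h' : allL (fun a => rel 24 5 a w w a) L = true) : sub h ≤ centralizer {el B w} := by
  rintro _ ⟨a, ha, rfl⟩
  exact mem_centralizer_singleton_iff.2
    ((commute_el_iff (inFx_of_isSub h a ha) hw).2 (allL_iff.1 h' a ha))

theorem mem_normalizer_sub (h : isSub B L = true) {w : ℕ} (hw : inFx B w = true)
    (h' : allL (fun a => anyL (fun c => rel 24 5 w a c w) L) L = true) :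
    el B w ∈ normalizer (sub h : Set (Fx B)) := by
  refine mem_normalizer_fintype ?_
  rintro _ ⟨a, ha, rfl⟩
  obtain ⟨c, hc, e⟩ := anyL_iff.1 (allL_iff.1 h' a ha)
  exact ⟨c, hc, Subtype.ext ((rep_el (inFx_of_isSub h c hc)).unique
    ((rep_el hw).conj (rep_el (inFx_of_isSub h a ha)) e))⟩

theorem fpf_sub (h : isSub B L = true) {w : ℕ} (hw : inFx B w = true)
    (h' : allL (fun a => !rel 24 5 a w w a || isOne 24 5 a) L = true) :
    ∀ q ∈ sub h, q * el B w = el B w * q → q = 1 := by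
  rintro _ ⟨a, ha, rfl⟩ e
  have := allL_iff.1 h' a ha
  rw [(commute_el_iff (inFx_of_isSub h a ha) hw).1 e] at this
  exact el_one (inFx_of_isSub h a ha) (by simpa using this)

theorem card_of_repL {U : Subgroup (Perm GolayPt)} (hL : RepL 5 ept L U)
    (hb : allL (Nat.blt · (2 ^ 120)) L = true) (hn : nodup L = true) : Nat.card U = L.length := by
  choose f h1 h2 using hL.2
  rw [← List.toFinset_card_of_nodup (nodup_of hn), ← Nat.subtype_card L.toFinset
    (p := (· ∈ L)) (by simp)]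
  refine (Nat.card_congr (Equiv.ofBijective (fun c : {c // c ∈ L} => (⟨f c.1 c.2, h1 _ _⟩ : U))
    ⟨fun a b e => Subtype.ext (eq_of_rep (h2 _ a.2) ((show f a.1 a.2 = f b.1 b.2 from congrArg Subtype.val e) ▸ h2 _ b.2)
      (Nat.blt_eq.mp (allL_iff.1 hb _ a.2)) (Nat.blt_eq.mp (allL_iff.1 hb _ b.2))),
      fun u => ?_⟩)).symm
  obtain ⟨c, hc, h⟩ := hL.1 u u.2
  exact ⟨⟨c, hc⟩, Subtype.ext ((h2 c hc).unique h)⟩

/-! ### Centralizers of involutions -/

theorem pres_fixM {t : ℕ} {τ y : Perm GolayPt} (hτ : Rep 5 ept t τ) (hy : y * τ = τ * y) :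
    Pres ept y (fixM 24 5 t) := fun x => by
  rw [hτ.mem_fixM, hτ.mem_fixM, ← Perm.mul_apply, ← hy, Perm.mul_apply, y.apply_eq_iff_eq]

theorem locRel_Fx {O i t : ℕ} {l l' : List (ℕ × ℕ × ℕ)} (h : isSub O L = true)
    (h1 : trans O i (16777215 ^^^ (16777215 &&& O)) L = true)
    (h2 : pop (16777215 ^^^ (16777215 &&& O)) = 16) (h3 : L.length = 16)
    (h4 : allL (fun a => allL (fun b => rel 24 5 a b b a) L) L = true)
    (h5 : fixRun l (O ||| 1 <<< i) = true) (h6 : fixRun l' (16777215 ^^^ (16777215 &&& O)) = true)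
    (h7 : fixM 24 5 t = O) {τ : Perm GolayPt} (hτ : Rep 5 ept t τ) (hτM : τ ∈ M24) :
    LocRel 2 M24 τ (Fx O) := by
  have hc : Nat.card (Fx O) = 16 := by
    rw [card_Fx_diff h1 fun g _ => pres_full g, h2, card_Fx_eq_one h5]
  have htop : sub h = ⊤ := eq_top_of_card_eq _ (by rw [card_sub, h3, hc])
  have hcomm : ∀ a ∈ Fx O, ∀ b ∈ Fx O, a * b = b * a := fun a ha b hb => by
    obtain ⟨c, hc, e⟩ := (mem_sub h).1 (htop ▸ mem_top (⟨a, ha⟩ : Fx O))
    obtain ⟨d, hd, e'⟩ := (mem_sub h).1 (htop ▸ mem_top (⟨b, hb⟩ : Fx O))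
    have := (commute_el_iff (inFx_of_isSub h c hc) (inFx_of_isSub h d hd)).2
      (allL_iff.1 (allL_iff.1 h4 c hc) d hd)
    rw [e, e'] at this
    exact congrArg Subtype.val this
  have hp : ∀ y ∈ centralizer ({τ} : Set (Perm GolayPt)), Pres ept y O := fun y hy =>
    h7 ▸ pres_fixM hτ (mem_centralizer_singleton_iff.1 hy)
  refine ⟨fun g hg => mem_centralizer_singleton_iff.2 (hcomm g hg τ ⟨hτM, fun x hx =>
    hτ.mem_fixM.1 (h7 ▸ hx)⟩), fun y hy => mem_normalizer_fintype fun g hg => ⟨mul_mem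
      (mul_mem hy.1 hg.1) (inv_mem hy.1), fun x hx => ?_⟩, IsPGroup.of_card (n := 4) hc,
    fun y hy => ?_⟩
  · rw [Perm.mul_apply, Perm.mul_apply, hg.2 _ ((hp _ (inv_mem hy.2) x).2 hx)]
    simp
  · obtain ⟨x, hx, -, hT⟩ := exists_of_trans h1
    obtain ⟨σ, hσ⟩ := hT (y x) (by
      rw [toSet_diff, Finset.mem_sdiff] at hx ⊢
      exact ⟨(pres_full y x).2 hx.1, fun h => hx.2 ((hp y hy.1.2 x).1 h)⟩)
    have := eq_one_of_fixRun h6 (g := σ.1⁻¹ * y) ⟨mul_mem (inv_mem σ.2.1) hy.1.1, fun z hz => by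
      obtain ⟨ρ, rfl⟩ := hT z hz
      rw [Perm.mul_apply, ← Perm.mul_apply y, ← hy.2 _ ρ.2, Perm.mul_apply ρ.1, ← hσ,
        ← Perm.mul_apply ρ.1, hcomm _ ρ.2 _ σ.2]
      simp⟩
    exact inv_mul_eq_one.1 this ▸ σ.2

/-- `c` preserves the set `m`. -/
noncomputable def presM (c m : ℕ) : Bool := allN (fun i => m.testBit (ap 5 c i) == m.testBit i) 24

theorem presM_iff {c m : ℕ} {σ : Perm GolayPt} (h : Rep 5 ept c σ) :
    presM c m = true ↔ Pres ept σ m := by
  simp only [presM, allN_iff, beq_iff_eq, Pres, mem_toSet, h _, ← Bool.eq_iff_iff]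
  exact ⟨forall_lt, fun h i hi => by obtain ⟨x, rfl⟩ := exists_pt (e := ept) hi; exact h x⟩

/-- The points `i` and `j` lie in the same members of `I`. -/
noncomputable def same (I : List ℕ) (i j : ℕ) : Bool :=
  allL (fun o => o.testBit i == o.testBit j) I

theorem exists_locRel_sextet {t : ℕ} {I E : List ℕ}
    (h1 : allL (fun o => presM t o == mem o I) octL = true)
    (h2 : allL (mem · octL) I = true)
    (h3 : allN (fun a => allN (fun b => !same I a b || (Nat.beq b a || Nat.beq b (ap 5 t a)) ||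
      allN (fun c => !same I a c || (Nat.beq c a || Nat.beq c (ap 5 t a)) ||
        (Nat.beq c b || Nat.beq c (ap 5 t b))) 24) 24) 24 = true)
    (h4 : allL (fun c => inFx 0 c && rel 24 5 c t t c &&
      allN (fun a => same I a (ap 5 c a)) 24) E = true)
    (h5 : allN (fun a => allN (fun b => same I a b ||
      anyL (fun c => Nat.beq (ap 5 c a) a && !Nat.beq (ap 5 c b) b) E) 24) 24 = true)
    {τ : Perm GolayPt} (hτ : Rep 5 ept t τ) (hτ2 : τ * τ = 1) :
    ∃ Q ≤ M24, LocRel 2 M24 τ Q := by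
  let R : GolayPt → GolayPt → Prop := fun a b =>
    ∀ o ∈ octL, Pres ept τ o → (a ∈ toSet ept o ↔ b ∈ toSet ept o)
  have hR : ∀ a b, R a b ↔ same I (ept a) (ept b) = true := fun a b => by
    simp only [R, same, allL_iff, beq_iff_eq, mem_toSet, ← Bool.eq_iff_iff] at h1 h2 ⊢
    exact ⟨fun h o ho => h o (mem_iff.1 (h2 o ho)) ((presM_iff hτ).1 ((h1 o (mem_iff.1
      (h2 o ho))).trans (mem_iff.2 ho))), fun h o ho hp => h o (mem_iff.1 ((h1 o ho).symm.trans
        ((presM_iff hτ).2 hp)))⟩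
  have hinv : ∀ y ∈ M24, y * τ = τ * y → ∀ a b, R (y a) (y b) → R a b := by
    intro y hy hc a b h o ho hp
    obtain ⟨o', ho', e⟩ := exists_oct hy ho
    rw [← e, ← e]
    refine h o' ho' fun x => ?_
    obtain ⟨x, rfl⟩ := y.surjective x
    rw [← Perm.mul_apply, ← hc, Perm.mul_apply, e, e, hp]
  let Q : Subgroup (Perm GolayPt) :=
    { carrier := {g | g ∈ M24 ⊓ centralizer {τ} ∧ ∀ a, R a (g a)}
      one_mem' := ⟨one_mem _, fun _ _ _ _ => Iff.rfl⟩
      mul_mem' := fun ha hb => ⟨mul_mem ha.1 hb.1, fun x o ho hp =>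
        (hb.2 x o ho hp).trans (ha.2 _ o ho hp)⟩
      inv_mem' := fun {g} ha => ⟨inv_mem ha.1, fun x o ho hp => by
        simpa using (ha.2 (g⁻¹ x) o ho hp).symm⟩ }
  refine ⟨Q, fun g hg => hg.1.1, fun g hg => hg.1.2, fun y hy => mem_normalizer_fintype
    fun g hg => ⟨mul_mem (mul_mem hy hg.1) (inv_mem hy), fun a => hinv y⁻¹ (inv_mem hy.1)
      (mem_centralizer_singleton_iff.1 (inv_mem hy.2)) _ _ (by simpa using hg.2 (y⁻¹ a))⟩,
    fun g => ⟨2, Subtype.ext (Perm.ext fun a => ?_)⟩, fun y hy => ⟨hy.1, fun a => ?_⟩⟩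
  · obtain ⟨g, hg, hg'⟩ := g
    have hc : ∀ a, g (τ a) = τ (g a) := fun a =>
      congr($(mem_centralizer_singleton_iff.1 hg.2) a)
    have ht : ∀ a, τ (τ a) = a := fun a => congr($hτ2 a)
    have key : ∀ a, g (g a) = a ∨ g (g a) = τ a := fun a => by
      have := forall_lt (e := ept) (allN_iff.1 (forall_lt (e := ept) (allN_iff.1 h3) a)) (g a)
      simp only [Bool.or_eq_true, Bool.not_eq_true', Nat.beq_eq, allN_iff, (hR _ _).1 (hg' a),
        ← hτ _, Fin.val_inj, ept.apply_eq_iff_eq] at this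
      rcases this with (h | h | h) | h
      · cases h
      · exact .inl (by rw [h, h])
      · exact .inl (by rw [h, hc, h, ht])
      · have := forall_lt (e := ept) h (g (g a))
        simp only [(hR a _).1 fun o ho hp => (hg' a o ho hp).trans (hg' _ o ho hp), Fin.val_inj,
          ept.apply_eq_iff_eq, ← hc, g.apply_eq_iff_eq] at this
        rcases this with (h | h) | h | h
        · cases h
        · exact h
        · exact .inl (by rw [h, h])
        · exact .inl (by rw [h, hc, h, ht])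
    show g (g (g (g a))) = a
    rcases key a with h | h
    · rw [h, h]
    · rw [h, hc, hc, h, ht]
  · have := forall_lt (e := ept) (allN_iff.1 (forall_lt (e := ept) (allN_iff.1 h5) a)) (y a)
    rw [Bool.or_eq_true, ← hR, anyL_iff] at this
    refine this.resolve_right ?_
    rintro ⟨c, hc, h⟩
    have h6 := allL_iff.1 h4 c hc
    simp only [Bool.and_eq_true, allN_iff] at h6
    have hσ := rep_el h6.1.1
    have := hy.2 (el 0 c).1 ⟨⟨(el 0 c).2.1, mem_centralizer_singleton_iff.2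
      ((rel_iff hσ hτ hτ hσ).1 h6.1.2)⟩, fun a => (hR _ _).2 (hσ a ▸ forall_lt h6.2 a)⟩
    simp only [Bool.and_eq_true, Nat.beq_eq, Bool.not_eq_true', ← hσ _, ← Bool.not_eq_true,
      Fin.val_inj, ept.apply_eq_iff_eq] at h
    exact h.2 (by rw [← Perm.mul_apply, this, Perm.mul_apply, h.1])

end Mat

end Cfsg.Agent.Block
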