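import Cfsg.Agent.Lib.Block.Thomp2

/-!
# The principal block of a group with a Sylow subgroup of order `p`
-/

set_option autoImplicit false
set_option linter.unusedSectionVars false
set_option linter.style.haveILetI false

namespace Cfsg.Agent.Block

open MonoidAlgebra Cfsg.Agent.Char Cfsg.Agent.Tr Subgroup Module
open scoped ComplexConjugate

theorem count_aux {ι Λ : Type*} [Fintype ι] [Fintype Λ] [Nonempty Λ] (D : ι → Λ → ℤ)
    (R : Λ → Λ → Prop) [DecidableRel R] (e : ℕ) (hinv : ∀ a b, R a b → ∀ χ, D χ a = D χ b)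
    (hrefl : ∀ a, R a a) (hcard : ∀ a, (Finset.univ.filter (R a)).card = e)
    (hG : ∀ a b, ∑ χ, D χ a * D χ b = e + if R a b then 1 else 0)
    (hT : ∀ χ₀, ∃ d : ι → ℕ, d χ₀ ≠ 0 ∧ (∀ (A : Finset ι) a, |∑ χ ∈ A, d χ * D χ a| ≤ 1) ∧
      (∀ χ a b, d χ * (D χ a - D χ b) ≤ 1) ∧ ∀ a, ∑ χ, d χ * D χ a = 0)
    (hN : ∀ χ, ∃ a, D χ a ≠ 0) :
    Fintype.card ι = e + Fintype.card Λ / e ∧ ∀ χ, ∃ ε : ℤ, (ε = 1 ∨ ε = -1) ∧
      (∑ a, D χ a = ε * Fintype.card Λ ∨ ∑ a, D χ a = ε * e) := by
  classical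
  have h1 : ∀ χ, ∃ ε : ℤ, (ε = 1 ∨ ε = -1) ∧ ∀ a, D χ a ≠ 0 → D χ a = ε := by
    intro χ
    obtain ⟨d, hd, t1, t2, -⟩ := hT χ
    obtain ⟨a, ha⟩ := hN χ
    have hd' : (1 : ℤ) ≤ d χ := by omega
    have b1 : ∀ a, -1 ≤ D χ a ∧ D χ a ≤ 1 := fun a => by
      have := abs_le.1 (t1 {χ} a)
      rw [Finset.sum_singleton] at this
      constructor <;> nlinarith [this.1, this.2]
    have b2 : ∀ a b, D χ a - D χ b ≤ 1 := fun a b => by nlinarith [t2 χ a b]
    refine ⟨D χ a, by have := b1 a; omega, fun b hb => ?_⟩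
    have := b1 a; have := b1 b; have := b2 a b; have := b2 b a
    omega
  choose ε hε hD using h1
  let T : Λ → Finset ι := fun a => Finset.univ.filter fun χ => D χ a ≠ 0
  have hTm : ∀ a χ, χ ∈ T a ↔ D χ a ≠ 0 := fun a χ => by simp [T]
  have h2 : ∀ a b, (T a ∩ T b).card = e + if R a b then 1 else 0 := fun a b => by
    have := hG a b
    rw [Finset.sum_congr rfl (g := fun χ => if χ ∈ T a ∩ T b then 1 else 0)] at this
    · rw [Finset.sum_ite_mem, Finset.univ_inter, Finset.sum_const, nsmul_one] at this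
      exact_mod_cast this
    · intro χ _
      simp only [Finset.mem_inter, hTm]
      split_ifs with h
      · rw [hD χ a h.1, hD χ b h.2]
        rcases hε χ with h | h <;> simp [h]
      · by_contra h'
        exact h ⟨left_ne_zero_of_mul h', right_ne_zero_of_mul h'⟩
  have h3 : ∀ a, (T a).card = e + 1 := fun a => by
    have := h2 a a
    rwa [Finset.inter_self, if_pos (hrefl a)] at this
  have h4 : ∀ a b, ¬ R a b → ∃ χ, T a \ T b = {χ} := fun a b h => by
    have := h2 a b
    rw [if_neg h] at this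
    refine Finset.card_eq_one.1 ?_
    have h5 := Finset.card_sdiff_add_card_inter (T a) (T b)
    rw [h3] at h5
    omega
  have h5 : ∀ χ a b c, D χ c = 0 → D χ a ≠ 0 → D χ b ≠ 0 → R a b := by
    intro χ a b c hc ha hb
    by_contra hab
    obtain ⟨χ₁, e1⟩ := h4 a c fun h => ha ((hinv a c h χ).trans hc)
    obtain ⟨χ₂, e2⟩ := h4 b c fun h => hb ((hinv b c h χ).trans hc)
    obtain ⟨ψ, e3⟩ := h4 c a fun h => ha ((hinv c a h χ).symm.trans hc)
    have m1 : ∀ ω, D ω a ≠ 0 ∧ D ω c = 0 ↔ ω = χ₁ := fun ω => by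
      rw [← Finset.mem_singleton (b := ω), ← e1, Finset.mem_sdiff, hTm, hTm, not_not]
    have m2 : ∀ ω, D ω b ≠ 0 ∧ D ω c = 0 ↔ ω = χ₂ := fun ω => by
      rw [← Finset.mem_singleton (b := ω), ← e2, Finset.mem_sdiff, hTm, hTm, not_not]
    have m3 : ∀ ω, D ω c ≠ 0 ∧ D ω a = 0 ↔ ω = ψ := fun ω => by
      rw [← Finset.mem_singleton (b := ω), ← e3, Finset.mem_sdiff, hTm, hTm, not_not]
    obtain rfl := (m1 χ).1 ⟨ha, hc⟩
    obtain rfl := (m2 χ).1 ⟨hb, hc⟩
    obtain ⟨hψc, hψa⟩ := (m3 ψ).2 rfl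
    have hne : χ ≠ ψ := fun h => hψc (h ▸ hc)
    obtain ⟨d, hd, t1, -, t3⟩ := hT χ
    have s1 : ∑ ω, (d ω * D ω a - d ω * D ω c) = 0 := by
      rw [Finset.sum_sub_distrib, t3, t3, sub_self]
    rw [← Finset.sum_subset (Finset.subset_univ {χ, ψ}), Finset.sum_pair hne, hc, hψa] at s1
    · have hψb : D ψ b = 0 := by
        by_contra hψb
        have := abs_le.1 (t1 {χ, ψ} b)
        rw [Finset.sum_pair hne, hD ψ b hψb, hD χ b hb] at this
        rw [hD ψ c hψc, hD χ a ha] at s1
        have hd' : (1 : ℤ) ≤ d χ := by omega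
        rcases hε χ with h | h <;> rw [h] at this s1 <;> omega
      have s2 : T b ⊆ T a := fun ω hω => by
        rw [hTm] at hω ⊢
        by_cases h : D ω c = 0
        · rwa [(m2 ω).1 ⟨hω, h⟩]
        · exact fun h' => hω (((m3 ω).1 ⟨h, h'⟩).symm ▸ hψb)
      have := h2 a b
      rw [Finset.inter_eq_right.2 s2, h3, if_neg hab] at this
      omega
    · intro ω _ hω
      rw [Finset.mem_insert, Finset.mem_singleton, not_or] at hω
      by_cases h : D ω a = 0 <;> by_cases h' : D ω c = 0
      · simp [h, h']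
      · exact absurd ((m3 ω).1 ⟨h', h⟩) hω.2
      · exact absurd ((m1 ω).1 ⟨h, h'⟩) hω.1
      · rw [hD ω a h, hD ω c h', sub_self]
  let Z : Finset ι := Finset.univ.filter fun χ => ∀ a, D χ a ≠ 0
  have h6 : ∀ χ, (Finset.univ.filter fun a => D χ a ≠ 0).card =
      if χ ∈ Z then Fintype.card Λ else e := fun χ => by
    split_ifs with h
    · rw [Finset.filter_true_of_mem fun a _ => (Finset.mem_filter.1 h).2 a, Finset.card_univ]
    · obtain ⟨c, hc⟩ : ∃ c, D χ c = 0 := by simpa [Z] using h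
      obtain ⟨a, ha⟩ := hN χ
      rw [← hcard a]
      exact congrArg _ (Finset.filter_congr fun b _ =>
        ⟨h5 χ a b c hc ha, fun h => hinv a b h χ ▸ ha⟩)
  have he : 0 < e := by
    obtain ⟨a⟩ := ‹Nonempty Λ›
    rw [← hcard a]
    exact Finset.card_pos.2 ⟨a, by simp [hrefl]⟩
  refine ⟨?_, fun χ => ⟨ε χ, hε χ, ?_⟩⟩
  · by_cases hall : ∀ a b, R a b
    · obtain ⟨a⟩ := ‹Nonempty Λ›
      have e1 : Fintype.card Λ = e := by
        rw [← hcard a, Finset.filter_true_of_mem fun b _ => hall a b, Finset.card_univ]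
      rw [e1, Nat.div_self he, ← h3 a, Finset.eq_univ_of_forall (s := T a), Finset.card_univ]
      intro χ
      obtain ⟨b, hb⟩ := hN χ
      rwa [hTm, hinv a b (hall a b)]
    · push Not at hall
      obtain ⟨a, b, hab⟩ := hall
      have e1 : Z.card = e := by
        have := h2 a b
        rw [if_neg hab, add_zero] at this
        rw [← this]
        congr 1
        ext χ
        rw [Finset.mem_inter, hTm, hTm, Finset.mem_filter]
        exact ⟨fun h => ⟨h.2 a, h.2 b⟩, fun h => ⟨Finset.mem_univ _, fun c hc =>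
          hab (h5 χ a b c hc h.1 h.2)⟩⟩
      have e2 : ∑ a, (T a).card = ∑ χ, (Finset.univ.filter fun a => D χ a ≠ 0).card := by
        simp only [T, Finset.card_filter]
        exact Finset.sum_comm
      simp only [h3, h6] at e2
      rw [Finset.sum_const, Finset.card_univ, Finset.sum_ite, Finset.sum_const, Finset.sum_const,
        Finset.filter_mem_eq_inter, Finset.univ_inter, e1] at e2
      have e3 := Finset.card_filter_add_card_filter_not (s := Finset.univ) (fun χ => χ ∈ Z)
      rw [Finset.filter_mem_eq_inter, Finset.univ_inter, e1, Finset.card_univ] at e3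
      simp only [smul_eq_mul] at e2
      have e4 : Fintype.card Λ = (Finset.univ.filter fun χ => χ ∉ Z).card * e := by
        nlinarith
      rw [e4, Nat.mul_div_cancel _ he, e3]
  · have : ∑ a, D χ a = ε χ * (Finset.univ.filter fun a => D χ a ≠ 0).card := by
      rw [← Finset.sum_filter_ne_zero, Finset.sum_congr rfl fun a ha =>
        hD χ a (Finset.mem_filter.1 ha).2, Finset.sum_const, nsmul_eq_mul, mul_comm]
    rw [this, h6]
    split_ifs
    exacts [Or.inl rfl, Or.inr rfl]

variable {G : Type*} [Group G] [Finite G]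

theorem eChar_irrOne (X : Subgroup G) : eChar X (irrOne X) = eTriv X := by
  haveI := Fintype.ofFinite X
  rw [eChar, eq_sum_single (idem _), map_sum, eTriv, setSum_eq_sum, Finset.smul_sum]
  refine Finset.sum_congr rfl fun x _ => ?_
  rw [map_smul, push_single, coeff_idem_singleton]
  simp

theorem push_eTriv {X H : Subgroup G} (h : X ≤ H) :
    push ℂ H.subtype (eTriv (X.subgroupOf H)) = eTriv X := by
  classical
  have : setSum ℂ (X.subgroupOf H : Set H) = trunc ℂ H.subtype (setSum ℂ (X : Set G)) :=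
    ga_ext fun x => by rw [coeff_trunc, coeff_setSum, coeff_setSum]; rfl
  rw [eTriv, map_smul, this, push_trunc H.subtype_injective fun g hg =>
    coeff_setSum_of_notMem fun h' => hg (by simpa using h h'),
    Nat.card_congr (subgroupOfEquivOfLe h).toEquiv, eTriv]

variable {M : Ideal AlgInt} [hM : M.IsMaximal] {p : ℕ} [hp : Fact p.Prime] [CharP (Res M) p]

theorem idem_principalBlock_eq {X : Subgroup G} [X.Normal] (hX : ¬ p ∣ Nat.card X) {k : ℕ}
    (hk : X.index = p ^ k) : idem (principalBlock M G) = eTriv X := by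
  have h1 : Cover.Stable X {irrOne X} := fun g θ hθ => by
    rw [Set.mem_singleton_iff.1 hθ]; rfl
  rw [← eChar_irrOne, eChar, h1.push_idem]
  congr 1
  ext χ
  constructor
  · exact fun h => ⟨_, rfl, (Cover.over_irrOne_iff X).2 (Cover.ker_of_mem_principalBlock X p hX h)⟩
  · rintro ⟨_, rfl, h⟩
    exact Cover.sameBlock_of_over_of_index X p hk (χ := irrOne G)
      ((Cover.over_irrOne_iff X).2 fun _ _ => rfl) h (sameBlock_refl _)

theorem ev_push_principal_of_mem {x : G} (hx : ∃ k, orderOf x = p ^ k) {χ : IrrCharacter G}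
    (hχ : χ ∈ principalBlock M G) :
    ev χ.1 (push ℂ (centralizer ({x} : Set G)).subtype
      (idem (principalBlock M (centralizer ({x} : Set G)))) * single x 1) = χ.1 x := by
  have h1 := ev_push_mul_single_eq_zero (M := M) (centralizer ({x} : Set G)).subtype_injective
    (h := ⟨x, self_mem_centralizer_singleton x⟩) (isPPart_self hx) (by simp)
    (idem_mem_cen (principalBlock M (centralizer ({x} : Set G)))ᶜ)
    (by
      rw [idem_compl]
      exact sub_mem (one_mem _) (IsPBlock.idem_mem_SG p isPBlock_principalBlock))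
    (idem_mul_self _) χ (idem_mem_cen (principalBlock M G))
    (IsPBlock.idem_mem_SG p isPBlock_principalBlock) (om_idem_of_mem hχ) (fun ξ => by
      rw [om_mul_cen ξ (idem_mem_cen _)]
      by_cases hξ : ξ ∈ principalBlock M (centralizer ({x} : Set G))
      · rw [om_idem_of_notMem (not_not.2 hξ), mul_zero]
        exact zero_mem _
      · obtain ⟨θ, hθ⟩ := exists_induces_centralizer (M := M) hx ξ
        have h2 := Induces.red_om hθ (idem_mem_cen (principalBlock M G))
          (IsPBlock.idem_mem_SG p isPBlock_principalBlock)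
        rw [om_idem_of_notMem fun h => hξ ((Induces.mem_principalBlock_iff p
          (subtype_injective _) hθ).1 h), red_zero] at h2
        rw [om_idem_of_mem (show ξ ∈ (principalBlock M _)ᶜ from hξ), mul_one]
        exact (red_eq_zero_iff (om_mem_locRing ξ (trunc_mem_cen _ (idem_mem_cen _))
          (trunc_mem_SG _ (IsPBlock.idem_mem_SG p isPBlock_principalBlock)))).1 h2)
  rw [idem_compl, map_sub, map_one, sub_mul, one_mul, map_sub, ev_single, one_mul] at h1
  exact (sub_eq_zero.1 h1).symm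

theorem ev_push_principal_of_notMem {x : G} (hx : ∃ k, orderOf x = p ^ k) {χ : IrrCharacter G}
    (hχ : χ ∉ principalBlock M G) :
    ev χ.1 (push ℂ (centralizer ({x} : Set G)).subtype
      (idem (principalBlock M (centralizer ({x} : Set G)))) * single x 1) = 0 :=
  ev_push_idem_eq_zero_of_not_induces hx isPBlock_principalBlock irrOne_mem_principalBlock
    (fun h => hχ ((Induces.mem_principalBlock_iff p (subtype_injective _) h).2
      irrOne_mem_principalBlock)) (h := ⟨x, self_mem_centralizer_singleton x⟩) (isPPart_self hx)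

theorem sum_ev_idem_mul_conj {i : ℂ[G]} (hiS : i ∈ SG G M) (hi : i * i = i) {g : G}
    (hg : p ∣ orderOf g) : ∑ χ : IrrCharacter G, ev χ.1 i * conj (χ.1 g) = 0 := by
  classical
  haveI := Fintype.ofFinite G
  obtain ⟨u, hu⟩ := exists_isPPart (p := p) g
  have hu1 : u ≠ 1 := fun h => (IsPPart.eq_one_iff hu).1 h hg
  rw [← sum_coeff_conj_eq, ← sum_eq_zero_of_pPart_free (M := M) (X := G) hu
    (fun x h => hu1 (mul_eq_right.1 h)) (Matrix.of fun a b => i.coeff (a⁻¹ * b))
    (fun a b => hiS _) ?_ fun a b => by simp [mul_assoc]]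
  · exact Fintype.sum_equiv (Equiv.inv G) _ _ fun t => by simp [mul_assoc]
  · ext a b
    rw [Matrix.mul_apply, Matrix.of_apply]
    conv_rhs => rw [← hi, coeff_mul_left]
    exact Fintype.sum_equiv (Equiv.mulLeft a⁻¹) _ _ fun t => by simp [mul_assoc]

variable (p) in
include p in
theorem exists_locIdem_ev_ne_zero (χ : IrrCharacter G) :
    ∃ i ∈ SG G M, i * i = i ∧ IsLocIdem (Res M) (redA M i) ∧ ev χ.1 i ≠ 0 := by
  classical
  haveI := isAlgClosed_res (M := M)
  have h1 := finrank_range_le_redSub (M := M) p (a := 1) (b := idem {χ}) one_ne_zero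
    (card_ne_zero_complex G) (by rw [one_smul]; exact one_mem _) (card_smul_idem_mem_SG _)
  have h2 := finrank_range_eq_sum (G := G) (one_mul 1) (idem_mul_self {χ})
  rw [Finset.sum_eq_single χ (fun ψ _ h => by
    rw [irr_ev_eq ψ (idem _), om_idem_of_notMem (B := {χ}) h, zero_mul, mul_zero]) (by simp),
    irr_ev_eq χ (idem _), om_idem_of_mem (B := {χ}) rfl, ev_one, one_mul] at h2
  have h3 : redSub M (LinearMap.range (LinearMap.mulLeft ℂ (1 : ℂ[G]) *
      LinearMap.mulRight ℂ (idem {χ}))) ≠ ⊥ := fun h => by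
    rw [h, finrank_bot, Nat.le_zero] at h1
    rw [h1, Nat.cast_zero] at h2
    exact mul_ne_zero (irr_apply_one_ne_zero χ) (irr_apply_one_ne_zero χ) h2.symm
  obtain ⟨_, ⟨_, ⟨w, rfl⟩, hw, rfl⟩, h0⟩ := Submodule.exists_mem_ne_zero_of_ne_bot h3
  obtain ⟨e, he, hve⟩ := exists_isLocIdem (F := Res M) h0
  obtain ⟨i, hiS, hi, rfl⟩ := exists_idem_lift he.1
  refine ⟨i, hiS, hi, he, fun h => hve ?_⟩
  have h4 : i * idem {χ} * (i * idem {χ}) = i * idem {χ} := by
    rw [(cen_commute (idem_mem_cen _) i).mul_mul_mul_comm, hi, idem_mul_self]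
  have h5 := finrank_range_eq_sum (G := G) (one_mul 1) h4
  rw [Finset.sum_eq_zero fun ψ _ => by
    rw [ev_mul_cen ψ (idem_mem_cen _)]
    by_cases e : ψ = χ
    · rw [e, h, zero_mul, mul_zero]
    · rw [om_idem_of_notMem (B := {χ}) e, mul_zero, mul_zero], Nat.cast_eq_zero,
    Submodule.finrank_eq_zero, LinearMap.range_eq_bot] at h5
  have h6 := LinearMap.congr_fun h5 w
  rw [Module.End.mul_apply, LinearMap.mulRight_apply, LinearMap.mulLeft_apply, one_mul,
    LinearMap.zero_apply] at h6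
  rw [← redA_mul hw hiS, Module.End.mul_apply, LinearMap.mulRight_apply, LinearMap.mulLeft_apply,
    one_mul, mul_assoc, ← cen_comm (idem_mem_cen _), h6, redA_zero]

end Cfsg.Agent.Block
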