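import Cfsg.Agent.Lib.Block.OrdP
import Cfsg.Agent.Lib.Block.Iso
import Cfsg.Agent.Lib.Block.Misc

/-!
# Brauer's theorem on the principal block of a group with a Sylow subgroup of order `p`
-/

set_option autoImplicit false
set_option linter.unusedSectionVars false
set_option linter.style.haveILetI false

namespace Cfsg.Agent.Block

open MonoidAlgebra Cfsg.Agent.Char Cfsg.Agent.Tr Subgroup Module
open scoped ComplexConjugate

variable {G : Type*} [Group G] [Finite G]
variable {M : Ideal AlgInt} [hM : M.IsMaximal] {p : ℕ} [hp : Fact p.Prime] [CharP (Res M) p]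

/-- The multiplicity of `l` in the restriction of `χ` to `P`. -/
noncomputable def resMult (P : Subgroup G) (χ : IrrCharacter G) (l : IrrCharacter P) : ℕ :=
  (@exists_nat_inner P _ (Fintype.ofFinite P) _ _ (isChar_restrict (isChar_irr χ) P)
    (isChar_irr l)).choose

theorem resMult_spec (P : Subgroup G) [Fintype P] (χ : IrrCharacter G) (l : IrrCharacter P) :
    classInner (fun x : P => χ.1 x) l.1 = resMult P χ l :=
  (inner_congr_inst _ _ _ _).trans (@exists_nat_inner P _ (Fintype.ofFinite P) _ _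
    (isChar_restrict (isChar_irr χ) P) (isChar_irr l)).choose_spec

namespace OrdP
variable {P X : Subgroup G} {u y : G} (h : OrdP p P X u y)
include h

theorem push_idem {H : Subgroup G} (hH : H = centralizer (P : Set G)) :
    push ℂ H.subtype (idem (principalBlock M H)) = eTriv X := by
  subst hH
  haveI : (X.subgroupOf (centralizer (P : Set G))).Normal :=
    (normal_subgroupOf_iff_le_normalizer h.X_le).2
      ((centralizer_le_normalizer _).trans h.normalizer_le)
  have h1 : Nat.card (X.subgroupOf (centralizer (P : Set G))) = Nat.card X :=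
    Nat.card_congr (subgroupOfEquivOfLe h.X_le).toEquiv
  have h2 := (X.subgroupOf (centralizer (P : Set G))).card_mul_index
  rw [h1, h.card_cent, mul_comm p] at h2
  rw [idem_principalBlock_eq (p := p) (X := X.subgroupOf (centralizer (P : Set G)))
    (h1 ▸ h.cardX) (k := 1) (by rw [pow_one]; exact Nat.eq_of_mul_eq_mul_left Nat.card_pos h2),
    push_eTriv h.X_le]

theorem ev_single_of_mem {x : G} (hx : x ∈ P) (h1 : x ≠ 1) {χ : IrrCharacter G}
    (hχ : χ ∈ principalBlock M G) : ev χ.1 (single x 1 * eTriv X) = χ.1 x := by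
  rw [← (commute_eTriv (h.normalizer_le (le_normalizer hx))).eq,
    ← h.push_idem (M := M) (h.cent_eq hx h1)]
  exact ev_push_principal_of_mem (exists_orderOf_of_mem h.syl.isPGroup hx) hχ

theorem ev_single_of_notMem {x : G} (hx : x ∈ P) (h1 : x ≠ 1) {χ : IrrCharacter G}
    (hχ : χ ∉ principalBlock M G) : ev χ.1 (single x 1 * eTriv X) = 0 := by
  rw [← (commute_eTriv (h.normalizer_le (le_normalizer hx))).eq,
    ← h.push_idem (M := M) (h.cent_eq hx h1)]
  exact ev_push_principal_of_notMem (exists_orderOf_of_mem h.syl.isPGroup hx) hχ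

theorem gram {x z : G} (hx : x ∈ P) (h1 : x ≠ 1) (hz : z ∈ P) (h2 : z ≠ 1)
    [Fintype (principalBlock M G)] :
    ∑ χ : principalBlock M G, χ.1.1 x * conj (χ.1.1 z) = p * classInd z x := by
  classical
  haveI := Fintype.ofFinite X
  have e1 : ∑ χ : principalBlock M G, χ.1.1 x * conj (χ.1.1 z) =
      ∑ χ : IrrCharacter G, ev χ.1 (single x 1 * eTriv X) * conj (χ.1 z) := by
    rw [← Finset.sum_subtype (Finset.univ.filter (· ∈ principalBlock M G)) (by simp)
      (fun χ : IrrCharacter G => χ.1 x * conj (χ.1 z)), Finset.sum_filter]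
    refine Finset.sum_congr rfl fun χ _ => ?_
    split_ifs with hχ
    · rw [h.ev_single_of_mem hx h1 hχ]
    · rw [h.ev_single_of_notMem hx h1 hχ, zero_mul]
  simp only [e1, ev_single_mul_eTriv, mul_assoc, Finset.sum_mul, ← Finset.mul_sum]
  rw [Finset.sum_comm]
  simp only [sum_irr_mul_conj]
  rw [Finset.sum_eq_single 1 (fun t _ ht => ?_) (by simp), h.cent_eq hz h2, h.card_cent]
  · have := card_ne_zero_complex X
    simp only [OneMemClass.coe_one, mul_one, Nat.cast_mul]
    field_simp
  · rw [classInd_of_not_isConj, mul_zero]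
    rintro hc
    obtain ⟨g, hg⟩ := isConj_iff.1 hc
    have e2 : x * t ∈ P := mem_of_mem_normalizer h.syl
      (centralizer_le_normalizer _ (mul_mem (h.le_cent hx) (h.X_le t.2)))
      (by rw [← hg, orderOf_conj]; exact exists_orderOf_of_mem h.syl.isPGroup hz)
    exact ((h.memX t).1 t.2).2 (dvd_orderOf_of_ne_one (fun e => ht (Subtype.ext e))
      (exists_orderOf_of_mem h.syl.isPGroup ((mul_mem_cancel_left hx).1 e2)))

omit hM [CharP (Res M) p] in
theorem exists_zpow {x : P} (hx : x ≠ 1) (w : P) : ∃ k : ℕ, x ^ k = w := by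
  obtain ⟨k, hk⟩ : (w : G) ∈ Submonoid.powers (x : G) := mem_powers_iff_mem_zpowers.2
    ((h.zpowers_eq x.2 fun e => hx (Subtype.ext e)).symm ▸ w.2)
  exact ⟨k, Subtype.ext hk⟩

omit hM [CharP (Res M) p] in
theorem aut_ext {α β : MulAut P} {x : P} (hx : x ≠ 1) (e : α x = β x) : α = β :=
  MulEquiv.ext fun w => by
    obtain ⟨k, rfl⟩ := h.exists_zpow hx w
    rw [map_pow, map_pow, e]

omit hM [CharP (Res M) p] in
theorem irr_injective {l : IrrCharacter P} (hl : l ≠ irrOne P) : Function.Injective l.1 := by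
  intro a b e
  obtain ⟨f, hf⟩ := exists_unitsHom_of_apply_one (isChar_irr l) (h.deg_eq_one l)
  by_contra hab
  refine hl (Subtype.ext (funext fun w => ?_))
  obtain ⟨k, rfl⟩ := h.exists_zpow (mul_inv_eq_one.not.2 hab) w
  rw [hf] at e ⊢
  simp [Units.ext e]

omit hM [CharP (Res M) p] in
theorem classInd_eq {x : P} (hx : x ≠ 1) (z : P) [Fintype P.normalizerMonoidHom.range]
    [DecidableEq P] :
    classInd (z : G) x = ∑ α : P.normalizerMonoidHom.range, if α.1 x = z then 1 else 0 := by
  by_cases hc : IsConj (z : G) x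
  · obtain ⟨g, hg⟩ := isConj_iff.1 hc.symm
    have hn := h.mem_normalizer_of_conj (g := g) x.2 (fun e => hx (Subtype.ext e)) (hg ▸ z.2)
    have e : P.normalizerMonoidHom ⟨g, hn⟩ x = z := Subtype.ext hg
    rw [classInd_of_isConj hc, Finset.sum_eq_single ⟨_, ⟨g, hn⟩, rfl⟩ (fun α _ hα =>
      if_neg fun e' => hα (Subtype.ext (h.aut_ext hx (e'.trans e.symm)))) (by simp), if_pos e]
  · rw [classInd_of_not_isConj hc, Finset.sum_eq_zero]
    rintro ⟨_, g, rfl⟩ _
    exact if_neg fun e => hc (IsConj.symm (isConj_iff.2 ⟨g.1, congrArg Subtype.val e⟩))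

omit hM [CharP (Res M) p] in
theorem card_irr : Fintype.card (IrrCharacter P) = p := by
  have := sum_irr_apply_one_sq (G := P)
  simp only [h.deg_eq_one, h.card] at this
  simpa using this

omit hM [CharP (Res M) p] in
theorem sub_eq [Fintype P] (χ : IrrCharacter G) (l : IrrCharacter P) :
    (((resMult P χ l : ℤ) - resMult P χ (irrOne P) : ℤ) : ℂ) =
      (p : ℂ)⁻¹ * ∑ x : P, χ.1 x * (conj (l.1 x) - 1) := by
  push_cast
  rw [← resMult_spec, ← resMult_spec, classInner, classInner, h.card, ← mul_sub,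
    ← Finset.sum_sub_distrib]
  simp [mul_sub]

omit hM [CharP (Res M) p] in
theorem sub_eq' [Fintype P] (χ : IrrCharacter G) (l : IrrCharacter P) :
    (((resMult P χ l : ℤ) - resMult P χ (irrOne P) : ℤ) : ℂ) =
      (p : ℂ)⁻¹ * ∑ x : P, conj (χ.1 x) * (l.1 x - 1) := by
  rw [← map_intCast (starRingEnd ℂ), h.sub_eq]
  simp [map_sum]

theorem ev_eChar (l : IrrCharacter P) {χ : IrrCharacter G} (hχ : χ ∈ principalBlock M G) :
    ev χ.1 (eChar P l * eTriv X) = (p : ℂ)⁻¹ * (ev χ.1 (eTriv X) - χ.1 1) + resMult P χ l := by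
  classical
  haveI := Fintype.ofFinite P
  rw [h.eChar_eq, Finset.sum_mul, map_sum, ← resMult_spec, classInner, h.card,
    ← Finset.add_sum_erase _ _ (Finset.mem_univ 1), ← Finset.add_sum_erase _ _ (Finset.mem_univ 1),
    mul_add, Finset.mul_sum, Finset.sum_congr rfl fun x hx => by
      rw [smul_mul_assoc, map_smul, h.ev_single_of_mem x.2
        (fun e => Finset.ne_of_mem_erase hx (Subtype.ext e)) hχ, smul_eq_mul, mul_assoc,
        mul_comm (conj _)]]
  simp only [h.deg_eq_one, OneMemClass.coe_one, ← one_def, smul_mul_assoc, one_mul, map_smul,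
    map_one, mul_one, smul_eq_mul]
  ring

theorem thompson_sum {i : ℂ[G]} (hiS : i ∈ SG G M) (hloc : IsLocIdem (Res M) (redA M i))
    (hi : i * i = i) (d : IrrCharacter G → ℕ) (hd : ∀ χ, ev χ.1 i = d χ)
    (A : Finset (principalBlock M G)) (l l' : IrrCharacter P) :
    ∑ χ ∈ A, (d χ : ℤ) * ((resMult P χ l : ℤ) - resMult P χ l') ≤ 1 := by
  classical
  have h1 := h.thompson hiS hloc hi (A.map (Function.Embedding.subtype _) : Finset _) l l'
  have h2 : ∀ l : IrrCharacter P, (finrank ℂ (LinearMap.range (LinearMap.mulLeft ℂ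
      (eChar P l * eTriv X) * LinearMap.mulRight ℂ (i * idem
        (A.map (Function.Embedding.subtype _) : Finset _)))) : ℂ) = ∑ χ ∈ A, (d χ : ℂ) *
      ((p : ℂ)⁻¹ * (ev χ.1.1 (eTriv X) - χ.1.1 1) + resMult P χ l) := fun l => by
    rw [finrank_range_eq_sum (h.eChar_eTriv_idem l) (by
      rw [(cen_commute (idem_mem_cen _) i).mul_mul_mul_comm, hi, idem_mul_self]),
      ← Finset.sum_subset (Finset.subset_univ (A.map (Function.Embedding.subtype _))),
      Finset.sum_map]
    · refine Finset.sum_congr rfl fun χ hχ => ?_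
      rw [ev_mul_cen _ (idem_mem_cen _) i, om_idem_of_mem (by simpa using hχ), mul_one, mul_comm,
        hd]
      exact congrArg _ (h.ev_eChar l χ.2)
    · intro χ _ hχ
      rw [ev_mul_cen _ (idem_mem_cen _) i, om_idem_of_notMem hχ, mul_zero, mul_zero]
  have h4 := h2 l'
  replace h2 := h2 l
  generalize finrank ℂ (LinearMap.range (LinearMap.mulLeft ℂ (eChar P l * eTriv X) * _)) = n
    at h1 h2
  generalize finrank ℂ (LinearMap.range (LinearMap.mulLeft ℂ (eChar P l' * eTriv X) * _)) = n'
    at h1 h4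
  have h3 : ((∑ χ ∈ A, (d χ : ℤ) * ((resMult P χ l : ℤ) - resMult P χ l') : ℤ) : ℂ) =
      ((n : ℤ) - (n' : ℤ) : ℤ) := by
    push_cast
    rw [h2, h4, ← Finset.sum_sub_distrib]
    exact Finset.sum_congr rfl fun χ _ => by ring
  rw [Int.cast_injective h3]
  omega

theorem gram_sub [Fintype (principalBlock M G)] [Fintype P.normalizerMonoidHom.range]
    [DecidableEq (IrrCharacter P)] {l l' : IrrCharacter P} (hl : l ≠ irrOne P)
    (hl' : l' ≠ irrOne P) :
    ∑ χ : principalBlock M G, ((resMult P χ l : ℤ) - resMult P χ (irrOne P)) *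
      ((resMult P χ l' : ℤ) - resMult P χ (irrOne P)) =
      ∑ α : P.normalizerMonoidHom.range, (1 + if irrComp α.1 l' = l then 1 else 0) := by
  classical
  haveI := Fintype.ofFinite P
  refine Int.cast_injective (α := ℂ) ?_
  have hp0 : (p : ℂ) ≠ 0 := Nat.cast_ne_zero.2 hp.out.ne_zero
  have e1 : ∀ χ : principalBlock M G, ((((resMult P χ l : ℤ) - resMult P χ (irrOne P)) *
      ((resMult P χ l' : ℤ) - resMult P χ (irrOne P)) : ℤ) : ℂ) = (p : ℂ)⁻¹ * (p : ℂ)⁻¹ *
        ∑ x : P, ∑ z : P, (conj (l.1 x) - 1) * (l'.1 z - 1) * (χ.1.1 x * conj (χ.1.1 z)) :=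
    fun χ => by
      rw [Int.cast_mul, h.sub_eq, h.sub_eq', mul_mul_mul_comm, Finset.sum_mul_sum]
      congr 1
      exact Finset.sum_congr rfl fun x _ => Finset.sum_congr rfl fun z _ => by ring
  have e2 : ∀ x z : P, ∑ χ : principalBlock M G,
      (conj (l.1 x) - 1) * (l'.1 z - 1) * (χ.1.1 x * conj (χ.1.1 z)) =
      p * ∑ α : P.normalizerMonoidHom.range,
        if α.1 x = z then (conj (l.1 x) - 1) * (l'.1 z - 1) else 0 := fun x z => by
    rw [← Finset.mul_sum]
    by_cases hx : x = 1
    · simp [hx, h.deg_eq_one]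
    by_cases hz : z = 1
    · simp [hz, h.deg_eq_one]
    rw [h.gram x.2 (fun e => hx (Subtype.ext e)) z.2 (fun e => hz (Subtype.ext e)),
      h.classInd_eq hx, mul_left_comm, Finset.mul_sum]
    simp
  have e3 : ∀ α : P.normalizerMonoidHom.range, (p : ℂ)⁻¹ * ∑ x : P, ∑ z : P,
      (if α.1 x = z then (conj (l.1 x) - 1) * (l'.1 z - 1) else 0) =
      1 + if irrComp α.1 l' = l then 1 else 0 := fun α => by
    have e4 : irrComp α.1 l' ≠ irrOne P := fun e => hl' ((irrComp α.1).injective e)
    have e5 := inner_sub_left (irrComp α.1 l').1 (irrOne P).1 (l.1 - (irrOne P).1)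
    rw [Char.inner_sub_right (irrComp α.1 l').1, Char.inner_sub_right (irrOne P).1, inner_irr, inner_irr, inner_irr, inner_irr, if_neg e4,
      if_neg hl.symm, if_pos rfl, classInner, h.card] at e5
    simp only [Finset.sum_ite_eq, Finset.mem_univ, if_true]
    refine Eq.trans ?_ (e5.trans (by ring))
    congr 1
    exact Finset.sum_congr rfl fun x _ => by simp [mul_comm]
  rw [Int.cast_sum, Finset.sum_congr rfl fun χ _ => e1 χ, ← Finset.mul_sum, Finset.sum_comm]
  simp only [Finset.sum_comm (s := (Finset.univ : Finset (principalBlock M G))), e2,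
    ← Finset.mul_sum]
  push_cast
  rw [← Finset.sum_congr rfl fun α _ => e3 α, ← Finset.mul_sum, mul_assoc,
    inv_mul_cancel_left₀ hp0, Finset.sum_comm (s := (Finset.univ : Finset
      P.normalizerMonoidHom.range))]
  congr 1
  exact Finset.sum_congr rfl fun x _ => Finset.sum_comm

theorem brauer (hodd : p ≠ 2) : Nat.card (principalBlock M G) =
    Nat.card P.normalizerMonoidHom.range + (p - 1) / Nat.card P.normalizerMonoidHom.range ∧
    ∀ χ ∈ principalBlock M G, ∃ ε : ℤ, (ε = 1 ∨ ε = -1) ∧ ((charDegree χ.1 : ℤ) ≡ ε [ZMOD p] ∨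
      (charDegree χ.1 : ℤ) ≡ ε * Nat.card P.normalizerMonoidHom.range [ZMOD p]) := by
  classical
  haveI := Fintype.ofFinite P
  haveI := Fintype.ofFinite (principalBlock M G)
  haveI := Fintype.ofFinite P.normalizerMonoidHom.range
  have hc : Fintype.card {l : IrrCharacter P // l ≠ irrOne P} = p - 1 := by
    rw [Fintype.card_subtype_compl, h.card_irr, Fintype.card_unique]
  haveI : Nonempty {l : IrrCharacter P // l ≠ irrOne P} := Fintype.card_pos_iff.1 (by
    have := hp.out.two_le
    omega)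
  have hinj : ∀ {l : IrrCharacter P} (hl : l ≠ irrOne P) {α β : P.normalizerMonoidHom.range},
      irrComp α.1 l = irrComp β.1 l → α = β := fun hl α β e =>
    Subtype.ext (MulEquiv.ext fun x => h.irr_injective hl (congrFun (congrArg Subtype.val e) x))
  have hu1 : u ≠ 1 := fun e => hp.out.one_lt.ne (by rw [← h.ord, e, orderOf_one])
  have key := count_aux (ι := principalBlock M G) (Λ := {l : IrrCharacter P // l ≠ irrOne P})
    (fun χ l => (resMult P χ l : ℤ) - resMult P χ (irrOne P))
    (fun a b => ∃ α : P.normalizerMonoidHom.range, irrComp α.1 b.1 = a.1)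
    (Nat.card P.normalizerMonoidHom.range) ?_ (fun a => ⟨1, rfl⟩) ?_ ?_ ?_ ?_
  · rw [hc] at key
    refine ⟨Nat.card_eq_fintype_card.trans key.1, fun χ hχ => ?_⟩
    obtain ⟨ε, hε, h1⟩ := key.2 ⟨χ, hχ⟩
    have h2 : (charDegree χ.1 : ℤ) ≡ ∑ a : {l : IrrCharacter P // l ≠ irrOne P},
        ((resMult P χ a : ℤ) - resMult P χ (irrOne P)) [ZMOD p] := by
      have h3 := apply_eq_sum_inner_mul (isClass_restrict (isClass_irr χ) P) 1
      simp only [resMult_spec, h.deg_eq_one, mul_one, OneMemClass.coe_one] at h3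
      rw [← Finset.sum_subtype (Finset.univ.erase (irrOne P)) (by simp)
        (fun l => (resMult P χ l : ℤ) - resMult P χ (irrOne P)), Finset.sum_erase _ (sub_self _),
        Finset.sum_sub_distrib, Finset.sum_const, Finset.card_univ, h.card_irr,
        charDegree_eq (h3.trans (Nat.cast_sum _ _).symm)]
      exact (Int.modEq_iff_dvd.2 ⟨-resMult P χ (irrOne P), by push_cast; ring⟩)
    rcases h1 with h1 | h1
    · refine ⟨-ε, by omega, Or.inl (h2.trans ?_)⟩
      rw [h1, Nat.cast_sub hp.out.one_le]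
      exact Int.modEq_iff_dvd.2 ⟨-ε, by push_cast; ring⟩
    · exact ⟨ε, hε, Or.inr (h1 ▸ h2)⟩
  · rintro a b ⟨⟨_, g, rfl⟩, e⟩ χ
    congr 2
    refine Nat.cast_injective (R := ℂ) ?_
    rw [← resMult_spec, ← resMult_spec, ← e,
      ← inner_comp_equiv (P.normalizerMonoidHom g) _ b.1.1]
    congr 1
    exact funext fun x => (isClass_irr χ.1 _ _).symm
  · intro a
    rw [Nat.card_eq_fintype_card, ← Finset.card_univ]
    refine (Finset.card_bij (fun α _ => ⟨irrComp α.1⁻¹ a.1, fun e =>
      a.2 ((irrComp α.1⁻¹).injective e)⟩) (fun α _ => ?_) (fun α _ β _ e => ?_)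
      (fun b hb => ?_)).symm
    · exact Finset.mem_filter.2 ⟨Finset.mem_univ _, α, (irrComp α.1).apply_symm_apply _⟩
    · exact inv_injective (hinj a.2 (α := α⁻¹) (β := β⁻¹) (congrArg Subtype.val e))
    · obtain ⟨α, hα⟩ := (Finset.mem_filter.1 hb).2
      exact ⟨α, Finset.mem_univ _, Subtype.ext
        ((congrArg (irrComp α.1).symm hα).symm.trans ((irrComp α.1).symm_apply_apply _))⟩
  · intro a b
    rw [h.gram_sub a.2 b.2, Finset.sum_add_distrib, Finset.sum_const, Finset.card_univ,
      Nat.card_eq_fintype_card, nsmul_one]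
    congr 1
    split_ifs with hab
    · obtain ⟨α, hα⟩ := hab
      rw [Finset.sum_eq_single α (fun β _ hβ => if_neg fun e => hβ (hinj b.2 (e.trans hα.symm)))
        (by simp), if_pos hα]
    · exact Finset.sum_eq_zero fun α _ => if_neg fun e => hab ⟨α, e⟩
  · intro χ₀
    obtain ⟨i, hiS, hi, hloc, h0⟩ := exists_locIdem_ev_ne_zero (M := M) p χ₀.1
    choose d hd using fun χ : IrrCharacter G => exists_nat_ev_idem (isChar_irr χ) hi
    refine ⟨fun χ => d χ, fun e => h0 ((hd _).trans (Nat.cast_eq_zero.2 e)), fun A a => ?_,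
      fun χ a b => ?_, fun a => ?_⟩
    · refine abs_le.2 ⟨?_, h.thompson_sum hiS hloc hi d hd A _ _⟩
      have := h.thompson_sum hiS hloc hi d hd A (irrOne P) a
      rw [neg_le, ← Finset.sum_neg_distrib]
      exact (Finset.sum_congr rfl fun χ _ => by ring).trans_le this
    · have := h.thompson_sum hiS hloc hi d hd {χ} a b
      rw [Finset.sum_singleton] at this
      exact le_of_eq_of_le (by ring) this
    · refine Int.cast_injective (α := ℂ) ?_
      simp only [Int.cast_sum, Int.cast_mul, h.sub_eq', Int.cast_natCast, ← hd, Finset.mul_sum]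
      rw [Finset.sum_comm, Int.cast_zero]
      refine Finset.sum_eq_zero fun x _ => ?_
      by_cases hx : x = 1
      · simp [hx, h.deg_eq_one]
      have h1 := sum_ev_idem_mul_conj (M := M) (p := p) (i := i * idem (principalBlock M G))
        (mul_mem hiS (IsPBlock.idem_mem_SG p isPBlock_principalBlock))
        (by rw [(cen_commute (idem_mem_cen _) i).mul_mul_mul_comm, hi, idem_mul_self]) (g := x)
        (dvd_orderOf_of_ne_one (fun e => hx (Subtype.ext e))
          (exists_orderOf_of_mem h.syl.isPGroup x.2))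
      rw [← Finset.sum_subset (Finset.subset_univ (Finset.univ.filter (· ∈ principalBlock M G)))
        (fun χ _ hχ => by
          rw [ev_mul_cen _ (idem_mem_cen _) i, om_idem_of_notMem (by simpa using hχ), mul_zero,
            zero_mul]), Finset.sum_subtype (p := (· ∈ principalBlock M G)) _ (by simp)] at h1
      refine Eq.trans ?_ ((congrArg (fun z => (p : ℂ)⁻¹ * (a.1.1 x - 1) * z) h1).trans
        (mul_zero _))
      rw [Finset.mul_sum]
      refine Finset.sum_congr rfl fun χ _ => ?_
      rw [ev_mul_cen _ (idem_mem_cen _) i, om_idem_of_mem χ.2]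
      ring
  · intro χ
    by_contra h0
    push Not at h0
    refine apply_ne_zero_of_mem_principalBlock (p := p) χ.2 (g := u) ?_ ?_
    · rw [h.cent_eq h.u_mem hu1]
      exact fun e => h.syl.2.2 (relIndex_top_right P ▸ e.trans (index_dvd_of_le h.le_cent))
    · have h3 := apply_eq_sum_inner_mul (isClass_restrict (isClass_irr χ.1) P) ⟨u, h.u_mem⟩
      have h4 := sum_irr_apply_one_mul (G := P) ⟨u, h.u_mem⟩
      simp only [h.deg_eq_one, one_mul] at h4
      rw [regChar_of_ne fun e => hu1 (congrArg Subtype.val e)] at h4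
      rw [h3, ← mul_zero (resMult P χ (irrOne P) : ℂ), ← h4, Finset.mul_sum]
      refine Finset.sum_congr rfl fun l _ => ?_
      rw [resMult_spec]
      by_cases hl : l = irrOne P
      · rw [hl]
      · rw [show resMult P χ l = resMult P χ (irrOne P) by have := h0 ⟨l, hl⟩; simp only at this; omega]

end OrdP

end Cfsg.Agent.Block
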