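import Cfsg.Agent.Lib.Block.OrdP2
import Cfsg.Agent.Lib.Char.More

/-!
# Characters outside the principal block of groups of characteristic `p` type
-/

set_option autoImplicit false
set_option linter.unusedSectionVars false
set_option linter.style.haveILetI false

namespace Cfsg.Agent.Block

open MonoidAlgebra Cfsg.Agent.Char Cfsg.Agent.Tr Subgroup Module
open scoped ComplexConjugate

variable {G : Type*} [Group G] [Finite G]

/-- The centralizer of `t` has a self-centralizing normal `p`-subgroup. -/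
def LocChar (p : ℕ) (t : G) : Prop :=
  ∃ Q : Subgroup G, Q ≤ centralizer {t} ∧ centralizer {t} ≤ normalizer (Q : Set G) ∧
    IsPGroup p Q ∧ centralizer {t} ⊓ centralizer (Q : Set G) ≤ Q

theorem LocChar.conj {p : ℕ} {t : G} (h : LocChar p t) (g : G) : LocChar p (g * t * g⁻¹) := by
  obtain ⟨Q, h1, h2, h3, h4⟩ := h
  have e : ∀ x, x ∈ centralizer ({g * t * g⁻¹} : Set G) ↔
      g⁻¹ * x * g ∈ centralizer ({t} : Set G) := fun x => by
    rw [mem_centralizer_singleton_iff, mem_centralizer_singleton_iff]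
    constructor <;> intro h
    · calc _ = g⁻¹ * (x * (g * t * g⁻¹)) * g := by group
        _ = _ := by rw [h]; group
    · calc _ = g * (g⁻¹ * x * g * t) * g⁻¹ := by group
        _ = _ := by rw [h]; group
  refine ⟨Q.comap (MulAut.conj g⁻¹).toMonoidHom, fun x hx => (e x).2 (h1 (by simpa using hx)),
    fun x hx => mem_normalizer_iff.2 fun y => ?_, h3.comap_of_injective _ (MulEquiv.injective _),
    fun x hx => ?_⟩
  · have := mem_normalizer_iff.1 (h2 ((e x).1 hx)) (g⁻¹ * y * g)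
    simpa [mul_assoc] using this
  · have : g⁻¹ * x * g ∈ Q := h4 ⟨(e x).1 hx.1, fun y hy => by
      have := hx.2 (g * y * g⁻¹) (by simpa [mul_assoc] using hy)
      calc _ = g⁻¹ * (g * y * g⁻¹ * x) * g := by group
        _ = _ := by rw [this]; group⟩
    simpa using this

theorem LocChar.subgroup {p : ℕ} {H : Subgroup G} {t : H} {Q : Subgroup G} (hQH : Q ≤ H)
    (h1 : Q ≤ centralizer {(t : G)}) (h2 : centralizer {(t : G)} ≤ normalizer (Q : Set G))
    (h3 : IsPGroup p Q) (h4 : centralizer {(t : G)} ⊓ centralizer (Q : Set G) ≤ Q) :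
    LocChar p t := by
  have e : ∀ x : H, x ∈ centralizer ({t} : Set H) ↔ (x : G) ∈ centralizer ({(t : G)} : Set G) :=
    fun x => by simp only [mem_centralizer_singleton_iff, Subtype.ext_iff, coe_mul]
  refine ⟨Q.subgroupOf H, fun x hx => (e x).2 (h1 hx), fun x hx => mem_normalizer_iff.2 fun y =>
    mem_normalizer_iff.1 (h2 ((e x).1 hx)) y, h3.comap_subtype, fun x hx => h4 ⟨(e x).1 hx.1,
      fun y hy => congrArg Subtype.val (hx.2 ⟨y, hQH hy⟩ hy)⟩⟩

section
variable {M : Ideal AlgInt} [hM : M.IsMaximal] {p : ℕ} [hp : Fact p.Prime] [CharP (Res M) p]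

theorem LocChar.sameBlock {t : G} (h : LocChar p t) (ξ ξ' : IrrCharacter (centralizer {t} : Subgroup G)) :
    SameBlock M ξ.1 ξ'.1 := by
  obtain ⟨Q, h1, h2, h3, h4⟩ := h
  haveI := normal_subgroupOf_of_le_normalizer h2
  exact Cover.sameBlock_of_centralizer_le p (Q := Q.subgroupOf (centralizer {t}))
    h3.comap_subtype (fun x hx => h4 ⟨x.2, fun y hy =>
      congrArg Subtype.val (hx ⟨y, h1 hy⟩ hy)⟩) ξ ξ'

theorem apply_eq_zero_of_locChar (h : ∀ t : G, orderOf t = p → LocChar p t) {χ : IrrCharacter G}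
    (hχ : χ ∉ principalBlock M G) {g : G} (hg : p ∣ orderOf g) : χ.1 g = 0 := by
  obtain ⟨u, hu⟩ := exists_isPPart (p := p) g
  obtain ⟨k, hk⟩ := IsPPart.orderOf_eq hu
  obtain ⟨k, rfl⟩ : ∃ j, k = j + 1 := Nat.exists_eq_add_one.2 (Nat.pos_of_ne_zero fun e =>
    (IsPPart.eq_one_iff hu).1 (orderOf_eq_one_iff.1 (by rw [hk, e, pow_zero])) hg)
  have ht : orderOf (u ^ p ^ k) = p := by
    rw [orderOf_pow_of_dvd (pow_ne_zero _ hp.out.ne_zero) (hk ▸ pow_dvd_pow _ k.le_succ), hk,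
      pow_succ, Nat.mul_div_cancel_left _ (pow_pos hp.out.pos _)]
  have hC : centralizer ({u} : Set G) ≤ centralizer {u ^ p ^ k} := fun x hx =>
    mem_centralizer_singleton_iff.2 (Commute.pow_right (mem_centralizer_singleton_iff.1 hx) _).eq
  obtain ⟨θ, hθ⟩ := exists_induces_centralizer (M := M) (p := p) (x := u ^ p ^ k)
    ⟨1, by rw [ht, pow_one]⟩ (irrOne _)
  have h1 := hθ.ev_push_idem_eq_zero (subtype_injective _)
    (h := ⟨g, hC (mem_centralizer_singleton_iff.2 (IsPPart.commute hu).eq)⟩) hu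
    (hC.trans (range_subtype _).ge) isPBlock_principalBlock irrOne_mem_principalBlock (χ := χ)
    fun e => hχ (sameBlock_trans ((hθ.mem_principalBlock_iff p (subtype_injective _)).2
      irrOne_mem_principalBlock) (sameBlock_symm e))
  rw [show principalBlock M (centralizer {u ^ p ^ k} : Subgroup G) = Set.univ from
    Set.eq_univ_of_forall fun ξ => (h _ ht).sameBlock (irrOne _) ξ, idem_univ, map_one, one_mul,
    ev_single, one_mul] at h1
  exact h1

end

theorem isChar_ev_eTriv {χ : G → ℂ} (hχ : IsCharacter G χ) (Q : Subgroup G) :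
    IsCharacter (normalizer (Q : Set G)) fun y => ev χ (single (y : G) 1 * eTriv Q) := by
  obtain ⟨n, ρ, rfl⟩ := hχ
  have h1 : ∀ y : normalizer (Q : Set G), ρ.asAlgebraHom (eTriv Q) * ρ y =
      ρ y * ρ.asAlgebraHom (eTriv Q) := fun y => by
    rw [← ρ.asAlgebraHom_single_one, ← map_mul, ← map_mul, (commute_eTriv y.2).eq]
  have := isChar_trace_mul_of_idempotent (ρ.comp (normalizer (Q : Set G)).subtype)
    (ρ.asAlgebraHom (eTriv Q)) (by rw [← map_mul, eTriv_mul_self]) h1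
  convert this using 2 with y
  rw [ev_character, map_mul, ρ.asAlgebraHom_single_one, ← h1]
  rfl

theorem ev_single_eTriv_of_vanish {χ : G → ℂ} {Q : Subgroup G} {y : G}
    (h : ∀ q ∈ Q, q ≠ 1 → χ (y * q) = 0) :
    ev χ (single y 1 * eTriv Q) = χ y / Nat.card Q := by
  haveI := Fintype.ofFinite Q
  rw [ev_single_mul_eTriv, Finset.sum_eq_single (1 : Q) (fun q _ hq => h q q.2 fun e =>
    hq (Subtype.ext e)) (by simp), OneMemClass.coe_one, mul_one, div_eq_inv_mul]

theorem ev_single_eTriv_of_fpf {χ : G → ℂ} (hχ : IsClassFunction G χ) {Q : Subgroup G} {y : G}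
    (hy : y ∈ normalizer (Q : Set G)) (h : ∀ q ∈ Q, q * y = y * q → q = 1) :
    ev χ (single y 1 * eTriv Q) = χ y := by
  haveI := Fintype.ofFinite Q
  let f : Q → Q := fun q => ⟨y⁻¹ * q * y * (q : G)⁻¹,
    mul_mem ((mem_normalizer_iff''.1 hy q).1 q.2) (inv_mem q.2)⟩
  have hf : Function.Injective f := fun a b e => by
    have e1 : y⁻¹ * a * y * (a : G)⁻¹ = y⁻¹ * b * y * (b : G)⁻¹ := congrArg Subtype.val e
    have := h ((b : G)⁻¹ * a) (mul_mem (inv_mem b.2) a.2) (by
      calc _ = (b : G)⁻¹ * y * (y⁻¹ * a * y * (a : G)⁻¹) * a := by group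
        _ = _ := by rw [e1]; group)
    exact Subtype.ext (inv_mul_eq_one.1 this).symm
  rw [ev_single_mul_eTriv, ← (Equiv.ofBijective f hf.bijective_of_finite).sum_comp,
    Finset.sum_congr rfl (g := fun _ => χ y) fun q _ => by
      rw [← hχ y q]
      congr 1
      simp [f, mul_assoc], Finset.sum_const, Finset.card_univ, nsmul_eq_mul,
    ← Nat.card_eq_fintype_card, inv_mul_cancel_left₀ (card_ne_zero_complex Q)]

theorem norm_le_of_fpf {χ : G → ℂ} (hχ : IsCharacter G χ) {Q : Subgroup G} {y : G}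
    (hy : y ∈ normalizer (Q : Set G)) (h : ∀ q ∈ Q, q * y = y * q → q = 1)
    (hv : ∀ q ∈ Q, q ≠ 1 → χ q = 0) : ‖χ y‖ ≤ ‖χ 1‖ / Nat.card Q := by
  have := norm_le_of_isChar (isChar_ev_eTriv hχ Q) ⟨y, hy⟩
  rwa [ev_single_eTriv_of_fpf (isClass_of_isChar hχ) hy h, OneMemClass.coe_one,
    ev_single_eTriv_of_vanish (by simpa using hv), norm_div, Complex.norm_natCast] at this

theorem dvd_of_vanish {χ : G → ℂ} (hχ : IsCharacter G χ) {Q : Subgroup G} {y : G}
    (hy : y ∈ normalizer (Q : Set G)) (hv : ∀ q ∈ Q, q ≠ 1 → χ (y * q) = 0) {a : ℚ}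
    (ha : χ y = a) : ∃ b : ℤ, a = Nat.card Q * b := by
  have := isIntegral_of_isChar (isChar_ev_eTriv hχ Q) ⟨y, hy⟩
  rw [ev_single_eTriv_of_vanish hv, ha, show (a : ℂ) / Nat.card Q =
    algebraMap ℚ ℂ (a / Nat.card Q) by simp, isIntegral_algebraMap_iff (algebraMap ℚ ℂ).injective]
    at this
  obtain ⟨b, hb⟩ := IsIntegrallyClosed.algebraMap_eq_of_integral this
  refine ⟨b, ?_⟩
  rw [eq_intCast, eq_div_iff (Nat.cast_ne_zero.2 Nat.card_pos.ne')] at hb
  rw [← hb, mul_comm]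

theorem exists_sum_eq {χ : G → ℂ} (hχ : IsCharacter G χ) (R : Subgroup G) [Fintype R] :
    ∃ k : ℕ, ∑ r : R, χ r = Nat.card R * k := by
  obtain ⟨k, hk⟩ := exists_nat_ev_idem hχ (eTriv_mul_self R)
  rw [← one_mul (eTriv R), one_def, ev_single_mul_eTriv,
    inv_mul_eq_iff_eq_mul₀ (card_ne_zero_complex R)] at hk
  exact ⟨k, by simpa using hk⟩

theorem sq_add_le_card (χ : IrrCharacter G) {x : G} (hx : x ≠ 1) :
    ‖χ.1 1‖ ^ 2 + (centralizer ({x} : Set G)).index * ‖χ.1 x‖ ^ 2 ≤ Nat.card G := by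
  classical
  haveI := Fintype.ofFinite G
  have h1 := inner_self_of_isIrr χ.2
  rw [inner_self_eq, ← Complex.ofReal_one, Complex.ofReal_inj,
    inv_mul_eq_one₀ (Nat.cast_ne_zero.2 Nat.card_pos.ne')] at h1
  rw [h1, ← Finset.add_sum_erase _ _ (Finset.mem_univ 1), ← Char.card_filter_isConj,
    ← nsmul_eq_mul, ← Finset.sum_const, Finset.sum_congr rfl (g := fun g => ‖χ.1 g‖ ^ 2)
    fun g hg => by rw [isClass_apply_of_isConj (isClass_irr χ) (Finset.mem_filter.1 hg).2]]
  refine add_le_add_right (Finset.sum_le_sum_of_subset_of_nonneg (fun g hg => ?_)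
    fun _ _ _ => by positivity) _
  exact Finset.mem_erase.2 ⟨fun e => hx (isConj_one_left.1 (e ▸ (Finset.mem_filter.1 hg).2)),
    Finset.mem_univ _⟩

theorem charDegree_modEq_of_selfCent {p : ℕ} [hp : Fact p.Prime] (hodd : p ≠ 2) {P : Subgroup G}
    (hP : SylowIn p P ⊤) (hc : Nat.card P = p) (hC : centralizer (P : Set G) ≤ P)
    (χ : IrrCharacter G) : p ∣ charDegree χ.1 ∨ ∃ e : ℕ, e ∣ p - 1 ∧
      ∃ ε : ℤ, (ε = 1 ∨ ε = -1) ∧ (charDegree χ.1 : ℤ) ≡ ε * e [ZMOD p] := by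
  obtain ⟨M, hM⟩ := exists_isPModular p
  haveI := hM.2.1
  haveI := charP_res hM
  obtain ⟨X, u, y, h⟩ := exists_ordP hP hc
  by_cases hχ : χ ∈ principalBlock M G
  · obtain ⟨ε, h1, h2 | h2⟩ := (h.brauer (M := M) hodd).2 χ hχ
    · exact Or.inr ⟨1, one_dvd _, ε, h1, by simpa using h2⟩
    · refine Or.inr ⟨_, ?_, ε, h1, h2⟩
      haveI : IsCyclic P := isCyclic_of_prime_card hc
      have := card_subgroup_dvd_card P.normalizerMonoidHom.range
      rwa [IsCyclic.card_mulAut, hc, Nat.totient_prime hp.out] at this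
  · left
    have hX : X = ⊥ := eq_bot_iff.2 fun x hx => by
      by_contra h2
      exact ((h.memX x).1 hx).2 (dvd_orderOf_of_ne_one h2
        (exists_orderOf_of_mem hP.isPGroup (hC (h.X_le hx))))
    rw [← hc]
    refine card_dvd_charDegree_of_vanish (isChar_irr χ) fun g hg h1 => ?_
    have := h.ev_single_of_notMem hg h1 hχ
    rwa [ev_single_eTriv_of_vanish fun q hq hq1 => absurd (by simpa [hX] using hq) hq1,
      div_eq_zero_iff, or_iff_left (card_ne_zero_complex X)] at this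

end Cfsg.Agent.Block
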